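import Mathlib
import Cfsg.Agent.Zel.Iface
set_option linter.all false

-- part: Zel/PI/Defs
section
/-!
# Zelmanov's theorem on PI Lie algebras, associative form: definitions and boxes

`wd x w` is the value of the word `w`, `cm x t` the value of the bracketing `t` (commutators in an
associative ring), `perms S` the arrangements of the finite set `S` of variables, and `val S f z` the
value of the multilinear polynomial with coefficients `f` on the arrangements of `S`.
-/

set_option autoImplicit false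

universe u

namespace Cfsg.Agent.Zel.PI

/-- the value of a word -/
def wd {A α : Type*} [Monoid A] (x : α → A) (w : List α) : A := (w.map x).prod

@[simp] theorem wd_nil {A α : Type*} [Monoid A] (x : α → A) : wd x [] = 1 := rfl

@[simp] theorem wd_cons {A α : Type*} [Monoid A] (x : α → A) (a : α) (w : List α) :
    wd x (a :: w) = x a * wd x w := by simp [wd]

@[simp] theorem wd_append {A α : Type*} [Monoid A] (x : α → A) (u v : List α) :
    wd x (u ++ v) = wd x u * wd x v := by simp [wd]

/-- the value of a bracketing in an associative ring -/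
def cm {A α : Type*} [Ring A] (x : α → A) : FreeMagma α → A
  | FreeMagma.of a => x a
  | FreeMagma.mul s t => cm x s * cm x t - cm x t * cm x s

theorem cm_of {A α : Type*} [Ring A] (x : α → A) (a : α) : cm x (FreeMagma.of a) = x a := rfl

theorem cm_mul {A α : Type*} [Ring A] (x : α → A) (s t : FreeMagma α) :
    cm x (s * t) = cm x s * cm x t - cm x t * cm x s := rfl

/-- the arrangements of a finite set of variables -/
noncomputable def perms (S : Finset ℕ) : Finset (List ℕ) := S.toList.permutations.toFinset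

theorem mem_perms {S : Finset ℕ} {w : List ℕ} : w ∈ perms S ↔ w.Nodup ∧ w.toFinset = S := by
  rw [perms, List.mem_toFinset, List.mem_permutations]
  constructor
  · intro h
    exact ⟨h.nodup_iff.2 S.nodup_toList, by rw [List.toFinset_eq_of_perm _ _ h, S.toList_toFinset]⟩
  · rintro ⟨h1, h2⟩
    refine List.perm_of_nodup_nodup_toFinset_eq h1 S.nodup_toList ?_
    rw [h2, S.toList_toFinset]

theorem card_perms (S : Finset ℕ) : (perms S).card = S.card.factorial := by
  rw [perms, List.toFinset_card_of_nodup (List.nodup_permutations _ S.nodup_toList),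
    List.length_permutations, Finset.length_toList]

theorem length_of_mem_perms {S : Finset ℕ} {w : List ℕ} (h : w ∈ perms S) : w.length = S.card := by
  obtain ⟨h1, h2⟩ := mem_perms.1 h
  rw [← h2, List.toFinset_card_of_nodup h1]

/-- the value of a multilinear polynomial in the variables `S` -/
noncomputable def val {F A : Type*} [Field F] [Ring A] [Algebra F A] (S : Finset ℕ) (f : List ℕ → F)
    (z : ℕ → A) : A := ∑ w ∈ perms S, f w • wd z w

/-- the commutators in the `x i` satisfy a non-trivial multilinear identity -/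
def HasPI (F : Type*) {A α : Type*} [Field F] [Ring A] [Algebra F A] (x : α → A) : Prop :=
  ∃ (S : Finset ℕ) (f : List ℕ → F), (∃ w ∈ perms S, f w ≠ 0) ∧
    ∀ t : ℕ → FreeMagma α, val S f (fun i => cm x (t i)) = 0

/-- Jacobson's theorem on weakly closed sets -/
def JacBox : Prop :=
  ∀ (F : Type) (A : Type u) [Field F] [Ring A] [Algebra F A] (W : Set A),
    (∀ a ∈ W, ∀ b ∈ W, a * b - b * a ∈ W) → (∀ a ∈ W, IsNilpotent a) →
    FiniteDimensional F (Submodule.span F W) →
    ∃ K : ℕ, ∀ l : List A, (∀ a ∈ l, a ∈ W) → K ≤ l.length → l.prod = 0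

/-- the step of Bahturin and Zaicev: from the degree zero part to the whole algebra -/
def BZBox : Prop :=
  ∀ (F : Type) (A : Type u) [Field F] [Ring A] [Algebra F A] (q n d : ℕ) (x : Fin d → A)
    (deg : Fin d → ZMod q), 0 < q →
    (∀ y : Fin n → FreeMagma (Fin d), (∀ i, dg deg (y i) = 0) →
      symProd (fun i => cm x (y i)) n Finset.univ = 0) → HasPI F x

/-- Zelmanov's theorem, associative form -/
def ZBox : Prop :=
  ∀ (F : Type) (A : Type u) [Field F] [IsAlgClosed F] [Ring A] [Algebra F A] (d : ℕ) (x : Fin d → A),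
    (∀ t : FreeMagma (Fin d), IsNilpotent (cm x t)) → HasPI F x →
    ∃ c : ℕ, ∀ w : List (Fin d), c ≤ w.length → wd x w = 0

end Cfsg.Agent.Zel.PI
end

-- part: Zel/PI/W
section
/-!
# The spans of the words of a given length, and gradings
-/

set_option autoImplicit false

namespace Cfsg.Agent.Zel.PI

open Submodule

variable {F A α : Type*} [Field F] [Ring A] [Algebra F A]

/-- the span of the words of length `n` -/
def W (F : Type*) [Field F] [Algebra F A] (x : α → A) (n : ℕ) : Submodule F A :=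
  span F {a | ∃ w : List α, w.length = n ∧ wd x w = a}

variable {x : α → A}

theorem wd_mem_W {n : ℕ} {w : List α} (h : w.length = n) : wd x w ∈ W F x n :=
  subset_span ⟨w, h, rfl⟩

theorem one_mem_W : (1 : A) ∈ W F x 0 := wd_mem_W (w := []) rfl

theorem x_mem_W (i : α) : x i ∈ W F x 1 := by
  have := wd_mem_W (F := F) (x := x) (w := [i]) rfl
  simpa using this

theorem W_le {n : ℕ} {I : Submodule F A} (h : ∀ w : List α, w.length = n → wd x w ∈ I) :
    W F x n ≤ I := by
  rw [W, span_le]
  rintro _ ⟨w, hw, rfl⟩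
  exact h w hw

theorem W_ind {n : ℕ} {P : A → Prop} {a : A} (ha : a ∈ W F x n)
    (hw : ∀ w : List α, w.length = n → P (wd x w)) (h0 : P 0)
    (hadd : ∀ a b, P a → P b → P (a + b)) (hs : ∀ (c : F) a, P a → P (c • a)) : P a := by
  induction ha using span_induction with
  | mem _ h => obtain ⟨w, h, rfl⟩ := h; exact hw w h
  | zero => exact h0
  | add a b _ _ h1 h2 => exact hadd a b h1 h2
  | smul c a _ h => exact hs c a h

theorem mul_mem_W {n m : ℕ} {a b : A} (ha : a ∈ W F x n) (hb : b ∈ W F x m) :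
    a * b ∈ W F x (n + m) := by
  refine W_ind (P := fun a => a * b ∈ W F x (n + m)) ha ?_ (by simp) ?_ ?_
  · intro w hw
    refine W_ind (P := fun b => wd x w * b ∈ W F x (n + m)) hb ?_ (by simp) ?_ ?_
    · intro v hv
      rw [← wd_append]
      exact wd_mem_W (by simp [hw, hv])
    · intro a b h1 h2
      rw [mul_add]; exact add_mem h1 h2
    · intro c a h
      rw [mul_smul_comm]; exact smul_mem _ _ h
  · intro a b h1 h2
    rw [add_mul]; exact add_mem h1 h2
  · intro c a h
    rw [smul_mul_assoc]; exact smul_mem _ _ h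

theorem mul_mem_W' {n m k : ℕ} {a b : A} (ha : a ∈ W F x n) (hb : b ∈ W F x m) (h : n + m = k) :
    a * b ∈ W F x k := h ▸ mul_mem_W ha hb

theorem cm_mem_W (t : FreeMagma α) : cm x t ∈ W F x t.length := by
  induction t with
  | ih1 a => exact x_mem_W a
  | ih2 s t hs ht =>
    rw [cm_mul]
    exact sub_mem (mul_mem_W' hs ht rfl) (mul_mem_W' ht hs (by simp [FreeMagma.length, add_comm]))

theorem pow_mem_W {n : ℕ} {a : A} (ha : a ∈ W F x n) (k : ℕ) : a ^ k ∈ W F x (k * n) := by
  induction k with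
  | zero => simpa using one_mem_W
  | succ k ih => rw [pow_succ]; exact mul_mem_W' ih ha (by ring)

theorem wd_mem_W_sum {β : Type*} {z : β → A} {l : β → ℕ} (u : List β)
    (h : ∀ i ∈ u, z i ∈ W F x (l i)) : wd z u ∈ W F x (u.map l).sum := by
  induction u with
  | nil => simpa using one_mem_W
  | cons a u ih =>
    rw [wd_cons, List.map_cons, List.sum_cons]
    exact mul_mem_W (h a (by simp)) (ih fun i hi => h i (by simp [hi]))

theorem sum_map_perms {S : Finset ℕ} {u : List ℕ} (hu : u ∈ perms S) (l : ℕ → ℕ) :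
    (u.map l).sum = ∑ i ∈ S, l i := by
  obtain ⟨h1, h2⟩ := mem_perms.1 hu
  rw [← h2, List.sum_toFinset _ h1]

theorem wd_mem_W_perms {S : Finset ℕ} {u : List ℕ} (hu : u ∈ perms S) (t : ℕ → FreeMagma α) :
    wd (fun i => cm x (t i)) u ∈ W F x (∑ i ∈ S, (t i).length) := by
  rw [← sum_map_perms hu]
  exact wd_mem_W_sum u fun i _ => cm_mem_W _

theorem val_mem_W (S : Finset ℕ) (f : List ℕ → F) (t : ℕ → FreeMagma α) :
    val S f (fun i => cm x (t i)) ∈ W F x (∑ i ∈ S, (t i).length) :=
  sum_mem fun _ hu => smul_mem _ _ (wd_mem_W_perms hu t)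

theorem W_fd [Finite α] (n : ℕ) : FiniteDimensional F (W F x n) := by
  refine FiniteDimensional.span_of_finite F ?_
  have : {a | ∃ w : List α, w.length = n ∧ wd x w = a} = wd x '' {w | w.length = n} := rfl
  rw [this]
  exact (List.finite_length_eq α n).image _

theorem W_add_le {n m : ℕ} {I : Submodule F A}
    (h : ∀ a ∈ W F x n, ∀ b ∈ W F x m, a * b ∈ I) : W F x (n + m) ≤ I := by
  refine W_le fun w hw => ?_
  rw [← List.take_append_drop n w, wd_append]
  exact h _ (wd_mem_W (by simp [hw])) _ (wd_mem_W (by simp [hw]))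

theorem W_succ_le {n : ℕ} {I : Submodule F A} (h : ∀ i, ∀ b ∈ W F x n, x i * b ∈ I) :
    W F x (n + 1) ≤ I := by
  refine W_le fun w hw => ?_
  obtain _ | ⟨i, w⟩ := w
  · simp at hw
  · rw [wd_cons]
    exact h _ _ (wd_mem_W (by simpa using hw))

/-- the span of the words of length less than `n` -/
def U (F : Type*) [Field F] [Algebra F A] (x : α → A) (n : ℕ) : Submodule F A :=
  ⨆ k ∈ Finset.range n, W F x k

theorem W_le_U {k n : ℕ} (h : k < n) : W F x k ≤ U F x n :=
  le_iSup₂_of_le (f := fun k (_ : k ∈ Finset.range n) => W F x k) k (Finset.mem_range.2 h) le_rfl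

theorem U_le {n : ℕ} {I : Submodule F A} (h : ∀ k < n, W F x k ≤ I) : U F x n ≤ I :=
  iSup₂_le fun k hk => h k (Finset.mem_range.1 hk)

theorem U_fd [Finite α] (n : ℕ) : FiniteDimensional F (U F x n) := by
  have := fun k => W_fd (F := F) (x := x) k
  rw [U, ← Finset.sup_eq_iSup]
  infer_instance

/-- a grading by the length of the words -/
structure Gr (F : Type*) [Field F] [Algebra F A] (x : α → A) where
  p : ℕ → A →ₗ[F] A
  p_wd : ∀ (n : ℕ) (w : List α), p n (wd x w) = if w.length = n then wd x w else 0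
  top : ∀ a : A, a ∈ span F (Set.range (wd x))

namespace Gr

variable (g : Gr F x)

include g in
theorem ind {P : A → Prop} (hw : ∀ w : List α, P (wd x w)) (h0 : P 0)
    (hadd : ∀ a b, P a → P b → P (a + b)) (hs : ∀ (c : F) a, P a → P (c • a)) (a : A) : P a := by
  have ha := g.top a
  induction ha using span_induction with
  | mem _ h => obtain ⟨w, rfl⟩ := h; exact hw w
  | zero => exact h0
  | add a b _ _ h1 h2 => exact hadd a b h1 h2
  | smul c a _ h => exact hs c a h

theorem p_mem (n : ℕ) (a : A) : g.p n a ∈ W F x n := by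
  refine g.ind (P := fun a => g.p n a ∈ W F x n) ?_ (by simp) ?_ ?_ a
  · intro w
    rw [g.p_wd]
    split_ifs with h
    · exact wd_mem_W h
    · exact zero_mem _
  · intro a b h1 h2
    rw [map_add]; exact add_mem h1 h2
  · intro c a h
    rw [map_smul]; exact smul_mem _ _ h

theorem p_self {n : ℕ} {a : A} (ha : a ∈ W F x n) : g.p n a = a := by
  refine W_ind (P := fun a => g.p n a = a) ha ?_ (by simp) ?_ ?_
  · intro w hw
    rw [g.p_wd, if_pos hw]
  · intro a b h1 h2
    rw [map_add, h1, h2]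
  · intro c a h
    rw [map_smul, h]

theorem p_ne {n m : ℕ} {a : A} (ha : a ∈ W F x n) (h : n ≠ m) : g.p m a = 0 := by
  refine W_ind (P := fun a => g.p m a = 0) ha ?_ (by simp) ?_ ?_
  · intro w hw
    rw [g.p_wd, if_neg (hw ▸ h)]
  · intro a b h1 h2
    rw [map_add, h1, h2, add_zero]
  · intro c a h
    rw [map_smul, h, smul_zero]

theorem p_mul_x (n : ℕ) (a : A) (i : α) : g.p (n + 1) (a * x i) = g.p n a * x i := by
  refine g.ind (P := fun a => g.p (n + 1) (a * x i) = g.p n a * x i) ?_ (by simp) ?_ ?_ a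
  · intro w
    have : wd x w * x i = wd x (w ++ [i]) := by simp
    rw [this, g.p_wd, g.p_wd]
    by_cases h : w.length = n <;> simp [h]
  · intro a b h1 h2
    rw [add_mul, map_add, map_add, h1, h2, add_mul]
  · intro c a h
    rw [smul_mul_assoc, map_smul, map_smul, h, smul_mul_assoc]

theorem p_x_mul (n : ℕ) (a : A) (i : α) : g.p (n + 1) (x i * a) = x i * g.p n a := by
  refine g.ind (P := fun a => g.p (n + 1) (x i * a) = x i * g.p n a) ?_ (by simp) ?_ ?_ a
  · intro w
    rw [← wd_cons, g.p_wd, g.p_wd]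
    by_cases h : w.length = n <;> simp [h]
  · intro a b h1 h2
    rw [mul_add, map_add, map_add, h1, h2, mul_add]
  · intro c a h
    rw [mul_smul_comm, map_smul, map_smul, h, mul_smul_comm]

theorem p_zero_mul_x (a : A) (i : α) : g.p 0 (a * x i) = 0 := by
  refine g.ind (P := fun a => g.p 0 (a * x i) = 0) ?_ (by simp) ?_ ?_ a
  · intro w
    have : wd x w * x i = wd x (w ++ [i]) := by simp
    rw [this, g.p_wd]
    simp
  · intro a b h1 h2
    rw [add_mul, map_add, h1, h2, add_zero]
  · intro c a h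
    rw [smul_mul_assoc, map_smul, h, smul_zero]

theorem p_zero_x_mul (a : A) (i : α) : g.p 0 (x i * a) = 0 := by
  refine g.ind (P := fun a => g.p 0 (x i * a) = 0) ?_ (by simp) ?_ ?_ a
  · intro w
    rw [← wd_cons, g.p_wd]
    simp
  · intro a b h1 h2
    rw [mul_add, map_add, h1, h2, add_zero]
  · intro c a h
    rw [mul_smul_comm, map_smul, h, smul_zero]

theorem exists_sum (a : A) : ∃ B, ∀ C, B ≤ C → ∑ k ∈ Finset.range C, g.p k a = a := by
  refine g.ind (P := fun a => ∃ B, ∀ C, B ≤ C → ∑ k ∈ Finset.range C, g.p k a = a) ?_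
    ⟨0, by simp⟩ ?_ ?_ a
  · intro w
    refine ⟨w.length + 1, fun C hC => ?_⟩
    simp only [g.p_wd]
    rw [Finset.sum_ite_eq, if_pos (Finset.mem_range.2 hC)]
  · rintro a b ⟨B1, h1⟩ ⟨B2, h2⟩
    refine ⟨max B1 B2, fun C hC => ?_⟩
    simp only [map_add, Finset.sum_add_distrib]
    rw [h1 C (le_of_max_le_left hC), h2 C (le_of_max_le_right hC)]
  · rintro c a ⟨B, h⟩
    refine ⟨B, fun C hC => ?_⟩
    simp only [map_smul, ← Finset.smul_sum]
    rw [h C hC]

theorem eq_zero {a : A} (h : ∀ n, g.p n a = 0) : a = 0 := by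
  obtain ⟨B, hB⟩ := g.exists_sum a
  rw [← hB B le_rfl]
  simp [h]

end Gr

/-- moving a letter across a word without repetitions -/
theorem comm_wd {β : Type*} [DecidableEq β] (y : A) (z : β → A) (u : List β) (hu : u.Nodup) :
    y * wd z u = wd z u * y +
      ∑ i ∈ u.toFinset, wd (Function.update z i (y * z i - z i * y)) u := by
  induction u with
  | nil => simp
  | cons a u ih =>
    obtain ⟨ha, hu⟩ := List.nodup_cons.1 hu
    have ha' : a ∉ u.toFinset := by simpa using ha
    rw [List.toFinset_cons, Finset.sum_insert ha', wd_cons, wd_cons, Function.update_self]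
    have e1 : wd (Function.update z a (y * z a - z a * y)) u = wd z u := by
      unfold wd
      congr 1
      refine List.map_congr_left fun i hi => Function.update_of_ne ?_ _ _
      rintro rfl
      exact ha hi
    have e2 : ∑ i ∈ u.toFinset, wd (Function.update z i (y * z i - z i * y)) (a :: u) =
        z a * ∑ i ∈ u.toFinset, wd (Function.update z i (y * z i - z i * y)) u := by
      rw [Finset.mul_sum]
      refine Finset.sum_congr rfl fun i hi => ?_
      rw [wd_cons, Function.update_of_ne]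
      rintro rfl
      exact ha' hi
    rw [e1, e2]
    have := ih hu
    calc y * (z a * wd z u) = (y * z a - z a * y) * wd z u + z a * (y * wd z u) := by noncomm_ring
      _ = _ := by rw [this]; noncomm_ring

end Cfsg.Agent.Zel.PI
end

-- part: Zel/PI/Shift
section
/-!
# Just infinite graded algebras; a shift of degrees is impossible when the commutators are nilpotent
-/

set_option autoImplicit false

universe u

namespace Cfsg.Agent.Zel.PI

open Submodule

section

variable {F A α : Type*} [Field F] [Ring A] [Algebra F A]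

/-- just infinite: no `W n` vanishes, and every non-zero graded ideal contains some `W n` -/
structure IsJI (F : Type*) [Field F] [Algebra F A] (x : α → A) : Prop where
  ne : ∀ n, W F x n ≠ ⊥
  ji : ∀ I : ℕ → Submodule F A, (∀ n, I n ≤ W F x n) →
    (∀ n i a, a ∈ I n → x i * a ∈ I (n + 1)) → (∀ n i a, a ∈ I n → a * x i ∈ I (n + 1)) →
    (∃ n, I n ≠ ⊥) → ∃ n, W F x n ≤ I n

variable {x : α → A}

theorem IsJI.shift (h : IsJI F x) (s : ℕ) (I : ℕ → Submodule F A) (h1 : ∀ n, I n ≤ W F x (n + s))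
    (h2 : ∀ n i a, a ∈ I n → x i * a ∈ I (n + 1)) (h3 : ∀ n i a, a ∈ I n → a * x i ∈ I (n + 1))
    (h4 : ∃ n, I n ≠ ⊥) : ∃ M, ∀ n, M ≤ n → W F x (n + s) ≤ I n := by
  have key : ∃ m, W F x m ≤ (if s ≤ m then I (m - s) else ⊥) := by
    refine h.ji (fun m => if s ≤ m then I (m - s) else ⊥) ?_ ?_ ?_ ?_
    · intro m
      split_ifs with hm
      · have := h1 (m - s)
        rwa [Nat.sub_add_cancel hm] at this
      · exact bot_le
    · intro m i a ha
      split_ifs at ha with hm
      · rw [if_pos (by omega), Nat.succ_sub hm]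
        exact h2 _ _ _ ha
      · rw [(mem_bot F).1 ha, mul_zero]
        exact zero_mem _
    · intro m i a ha
      split_ifs at ha with hm
      · rw [if_pos (by omega), Nat.succ_sub hm]
        exact h3 _ _ _ ha
      · rw [(mem_bot F).1 ha, zero_mul]
        exact zero_mem _
    · obtain ⟨n, hn⟩ := h4
      exact ⟨n + s, by simpa using hn⟩
  obtain ⟨m, hm⟩ := key
  split_ifs at hm with hs
  · refine ⟨m - s, fun n hn => ?_⟩
    induction n, hn using Nat.le_induction with
    | base => rwa [Nat.sub_add_cancel hs]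
    | succ n hn ih =>
      rw [Nat.add_right_comm]
      exact W_succ_le fun i b hb => h2 _ _ _ (ih hb)
  · exact absurd (le_bot_iff.1 hm) (h.ne m)

theorem IsJI.exists_ne (h : IsJI F x) (n : ℕ) : ∃ a ∈ W F x n, a ≠ 0 :=
  (Submodule.ne_bot_iff _).1 (h.ne n)

theorem IsJI.ann1 (h : IsJI F x) (g : Gr F x) {a : A} (ha : ∀ i, a * x i = 0) : a = 0 := by
  let I : ℕ → Submodule F A := fun n =>
    W F x n ⊓ ⨅ i, LinearMap.ker (LinearMap.mulRight F (x i))
  have hI : ∀ n b, b ∈ I n ↔ b ∈ W F x n ∧ ∀ i, b * x i = 0 := by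
    intro n b
    simp [I]
  have key : ∀ n, I n = ⊥ := by
    by_contra hne
    push Not at hne
    obtain ⟨n, hn⟩ := h.ji I (fun n => inf_le_left) (fun n i b hb => by
      rw [hI] at hb ⊢
      exact ⟨mul_mem_W' (x_mem_W i) hb.1 (add_comm _ _), fun j => by
        rw [mul_assoc, hb.2, mul_zero]⟩) (fun n i b hb => by
      rw [hI] at hb
      rw [hb.2]
      exact zero_mem _) hne
    apply h.ne (n + 1)
    rw [← le_bot_iff]
    refine W_add_le fun b hb c hc => ?_
    refine W_ind (P := fun c => b * c ∈ (⊥ : Submodule F A)) hc ?_ (by simp) ?_ ?_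
    · intro w hw
      obtain ⟨i, rfl⟩ := List.length_eq_one_iff.1 hw
      simpa using ((hI _ _).1 (hn hb)).2 i
    · intro a b h1 h2
      rw [mul_add]; exact add_mem h1 h2
    · intro c a h
      rw [mul_smul_comm]; exact smul_mem _ _ h
  refine g.eq_zero fun n => ?_
  have : g.p n a ∈ I n := (hI _ _).2 ⟨g.p_mem _ _, fun i => by rw [← g.p_mul_x, ha, map_zero]⟩
  rwa [key, mem_bot] at this

theorem IsJI.ann (h : IsJI F x) (g : Gr F x) (M : ℕ) {a : A}
    (ha : ∀ w : List α, w.length = M → a * wd x w = 0) : a = 0 := by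
  induction M generalizing a with
  | zero => simpa using ha [] rfl
  | succ M ih =>
    refine h.ann1 g fun i => ih fun w hw => ?_
    rw [mul_assoc, ← wd_cons]
    exact ha _ (by simp [hw])

/-- the graph of a bijection that commutes with left multiplication and changes the degree -/
def Shift (F : Type*) [Field F] [Algebra F A] (x : α → A) : Prop :=
  ∃ (s s' M : ℕ) (G : ℕ → Submodule F (A × A)), s' < s ∧
    (∀ n, ∀ y ∈ G n, y.1 ∈ W F x (n + s) ∧ y.2 ∈ W F x (n + s')) ∧
    (∀ n i, ∀ y ∈ G n, (x i * y.1, x i * y.2) ∈ G (n + 1)) ∧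
    (∀ n, ∀ y ∈ G n, y.2 = 0 → y.1 = 0) ∧ (∀ n, ∀ y ∈ G n, y.1 = 0 → y.2 = 0) ∧
    ∀ n, M ≤ n → ∀ u ∈ W F x (n + s), ∃ a, (u, a) ∈ G n

theorem map_cm {B : Type*} [Ring B] (φ : A →+* B) (t : FreeMagma α) :
    φ (cm x t) = cm (fun i => φ (x i)) t := by
  induction t with
  | ih1 a => rfl
  | ih2 s t hs ht => rw [cm_mul, cm_mul, map_sub, map_mul, map_mul, hs, ht]

theorem map_wd {B : Type*} [Ring B] (φ : A →+* B) (w : List α) :
    φ (wd x w) = wd (fun i => φ (x i)) w := by
  induction w with
  | nil => simp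
  | cons a w ih => simp [ih]

end

/-- Jacobson's theorem for the commutators in the generators -/
theorem JacBox.wd_eq_zero (hJ : JacBox.{u}) {F : Type} {A : Type u} {α : Type*} [Field F] [Ring A]
    [Algebra F A] {x : α → A} (hn : ∀ t, IsNilpotent (cm x t))
    (hf : FiniteDimensional F (span F (Set.range (cm x)))) :
    ∃ K, ∀ w : List α, K ≤ w.length → wd x w = 0 := by
  obtain ⟨K, hK⟩ := hJ F A (Set.range (cm x)) (by
    rintro _ ⟨s, rfl⟩ _ ⟨t, rfl⟩
    exact ⟨s * t, cm_mul x s t⟩) (by
    rintro _ ⟨s, rfl⟩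
    exact hn s) hf
  refine ⟨K, fun w hw => hK (w.map x) ?_ (by simpa using hw)⟩
  intro a ha
  obtain ⟨i, -, rfl⟩ := List.mem_map.1 ha
  exact ⟨FreeMagma.of i, rfl⟩

theorem not_shift (hJ : JacBox.{u}) {F : Type} {A : Type u} {α : Type*} [Finite α] [Field F]
    [Ring A] [Algebra F A] {x : α → A} (g : Gr F x) (h : IsJI F x)
    (hn : ∀ t, IsNilpotent (cm x t)) : ¬ Shift F x := by
  classical
  rintro ⟨s, s', M, G, hs, hW, hl, h1, h2, hsur⟩
  let D : A × A →ₗ[F] A := LinearMap.fst F A A - LinearMap.snd F A A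
  have hD : ∀ y, D y = y.1 - y.2 := fun y => rfl
  let N₀ : Submodule F A := ⨆ n, (G n).map D
  have hN₀ : ∀ n, ∀ y ∈ G n, y.1 - y.2 ∈ N₀ := fun n y hy =>
    mem_iSup_of_mem n (mem_map_of_mem (f := D) hy)
  have hx : ∀ i, ∀ z ∈ N₀, x i * z ∈ N₀ := by
    intro i z hz
    induction hz using iSup_induction' with
    | mem n z hz =>
      obtain ⟨y, hy, rfl⟩ := hz
      rw [hD, mul_sub]
      exact hN₀ _ _ (hl n i y hy)
    | zero => simp
    | add a b _ _ ha hb => rw [mul_add]; exact add_mem ha hb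
  have hA : ∀ a, ∀ z ∈ N₀, a * z ∈ N₀ := by
    intro a
    refine g.ind (P := fun a => ∀ z ∈ N₀, a * z ∈ N₀) ?_ (by simp) ?_ ?_ a
    · intro w
      induction w with
      | nil => simp
      | cons i w ih =>
        intro z hz
        rw [wd_cons, mul_assoc]
        exact hx _ _ (ih z hz)
    · intro a b ha hb z hz
      rw [add_mul]; exact add_mem (ha z hz) (hb z hz)
    · intro c a ha z hz
      rw [smul_mul_assoc]; exact smul_mem _ _ (ha z hz)
  -- no homogeneous elements
  have hhom : ∀ m, ∀ z ∈ N₀, z ∈ W F x m → z = 0 := by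
    intro m z hz hzm
    obtain ⟨f, hf, hfz⟩ := (mem_iSup_iff_exists_finsupp _ _).1 hz
    choose y hy hyf using hf
    by_contra hz0
    have hne : f.support.Nonempty := by
      rw [Finsupp.support_nonempty_iff]
      rintro rfl
      exact hz0 (by simpa using hfz.symm)
    have hz' : z = ∑ n ∈ f.support, ((y n).1 - (y n).2) := by
      rw [← hfz, Finsupp.sum]
      exact Finset.sum_congr rfl fun n _ => (hyf n).symm
    have e0 : g.p (f.support.min' hne + s') z = - (y (f.support.min' hne)).2 := by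
      conv_lhs => rw [hz']
      rw [map_sum, Finset.sum_eq_single_of_mem _ (Finset.min'_mem _ hne), map_sub,
        g.p_ne (hW _ _ (hy _)).1 (by omega), g.p_self (hW _ _ (hy _)).2, zero_sub]
      intro n hn hne'
      have := Finset.min'_le _ _ hn
      rw [map_sub, g.p_ne (hW _ _ (hy _)).1 (by omega), g.p_ne (hW _ _ (hy _)).2 (by omega),
        sub_zero]
    have e1 : g.p (f.support.max' hne + s) z = (y (f.support.max' hne)).1 := by
      conv_lhs => rw [hz']
      rw [map_sum, Finset.sum_eq_single_of_mem _ (Finset.max'_mem _ hne), map_sub,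
        g.p_ne (hW _ _ (hy _)).2 (by omega), g.p_self (hW _ _ (hy _)).1, sub_zero]
      intro n hn hne'
      have := Finset.le_max' _ _ hn
      rw [map_sub, g.p_ne (hW _ _ (hy _)).1 (by omega), g.p_ne (hW _ _ (hy _)).2 (by omega),
        sub_zero]
    have hle := Finset.min'_le_max' _ hne
    have hy0 : ∀ n ∈ f.support, (y n).1 ≠ 0 ∧ (y n).2 ≠ 0 := by
      intro n hn
      rw [Finsupp.mem_support_iff, ← hyf, hD] at hn
      constructor
      · intro e
        exact hn (by rw [e, h2 _ _ (hy n) e, sub_zero])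
      · intro e
        exact hn (by rw [e, h1 _ _ (hy n) e, sub_zero])
    by_cases hm : m = f.support.min' hne + s'
    · rw [g.p_ne hzm (by omega)] at e1
      exact (hy0 _ (Finset.max'_mem _ hne)).1 e1.symm
    · rw [g.p_ne hzm hm] at e0
      exact (hy0 _ (Finset.min'_mem _ hne)).2 (neg_eq_zero.1 e0.symm)
  -- finite codimension
  have hco : ∀ k, W F x k ≤ N₀ ⊔ U F x (M + s) := by
    intro k
    induction k using Nat.strong_induction_on with
    | _ k ih =>
      by_cases hk : k < M + s
      · exact (W_le_U hk).trans le_sup_right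
      · intro u hu
        obtain ⟨n, rfl⟩ : ∃ n, k = n + s := ⟨k - s, by omega⟩
        obtain ⟨a, ha⟩ := hsur n (by omega) u hu
        have : u = (u - a) + a := by abel
        rw [this]
        exact add_mem (mem_sup_left (hN₀ _ _ ha)) (ih (n + s') (by omega) (hW _ _ ha).2)
  let N : Submodule A A :=
    { carrier := N₀
      add_mem' := fun ha hb => add_mem ha hb
      zero_mem' := zero_mem _
      smul_mem' := fun a z hz => hA a z hz }
  have := U_fd (F := F) (x := x) (M + s)
  have hfd : FiniteDimensional F (A ⧸ N) := by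
    refine Module.Finite.of_surjective
      ((N.mkQ.restrictScalars F).comp (U F x (M + s)).subtype) fun q => ?_
    obtain ⟨a, rfl⟩ := N.mkQ_surjective q
    have ha : a ∈ N₀ ⊔ U F x (M + s) := by
      refine g.ind (P := fun a => a ∈ N₀ ⊔ U F x (M + s)) (fun w => hco _ (wd_mem_W rfl))
        (zero_mem _) (fun _ _ => add_mem) (fun c _ => smul_mem _ c) a
    obtain ⟨b, hb, c, hc, rfl⟩ := mem_sup.1 ha
    refine ⟨⟨c, hc⟩, ?_⟩
    have hb' : N.mkQ b = 0 := (Submodule.Quotient.mk_eq_zero N).2 hb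
    simp only [LinearMap.comp_apply, subtype_apply, LinearMap.restrictScalars_apply, map_add, hb',
      zero_add]
  let ρ : A →ₐ[F] Module.End F (A ⧸ N) := Algebra.lsmul F F (A ⧸ N)
  obtain ⟨K, hK⟩ := hJ.wd_eq_zero (F := F) (x := fun i => ρ (x i))
    (fun t => by
      have := (hn t).map ρ.toRingHom
      rwa [map_cm] at this) inferInstance
  apply h.ne K
  rw [← le_bot_iff]
  refine W_le fun w hw => ?_
  have e := hK w hw.ge
  have e' : ρ (wd x w) = 0 := by
    rw [← e]
    exact map_wd ρ.toRingHom w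
  have e2 : wd x w • (Submodule.Quotient.mk 1 : A ⧸ N) = 0 := by
    have := congrArg (fun φ : Module.End F (A ⧸ N) => φ (Submodule.Quotient.mk 1)) e'
    simpa [ρ] using this
  rw [← Submodule.Quotient.mk_smul, Submodule.Quotient.mk_eq_zero, smul_eq_mul, mul_one] at e2
  exact (mem_bot F).2 (hhom K _ e2 (wd_mem_W hw))

end Cfsg.Agent.Zel.PI
end

-- part: Zel/PI/Dens
section
/-!
# The density lemma for graded sub-bimodules of `A ^ r`
-/

set_option autoImplicit false

namespace Cfsg.Agent.Zel.PI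

open Submodule

variable {F A α : Type*} [Field F] [Ring A] [Algebra F A] {x : α → A}

/-- a homogeneous bimodule map is a scalar -/
theorem two_coord [IsAlgClosed F] [Finite α] (h : IsJI F x) (hs : ¬ Shift F x) (s s' M : ℕ)
    (G : ℕ → Submodule F (A × A))
    (hW : ∀ n, ∀ y ∈ G n, y.1 ∈ W F x (n + s) ∧ y.2 ∈ W F x (n + s'))
    (hl : ∀ n i, ∀ y ∈ G n, (x i * y.1, x i * y.2) ∈ G (n + 1))
    (hr : ∀ n i, ∀ y ∈ G n, (y.1 * x i, y.2 * x i) ∈ G (n + 1))
    (h1 : ∀ n, ∀ y ∈ G n, y.2 = 0 → y.1 = 0)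
    (ht : ∀ n, M ≤ n → ∀ a ∈ W F x (n + s'), ∃ u, (u, a) ∈ G n) :
    ∃ (c : F) (M' : ℕ), ∀ n, M' ≤ n → ∀ y ∈ G n, y.1 = c • y.2 := by
  -- the elements on which the map is the scalar `c`
  have scal : ∀ c : F, (∃ n a, a ≠ 0 ∧ (c • a, a) ∈ G n) →
      ∃ M' : ℕ, ∀ n, M' ≤ n → ∀ y ∈ G n, y.1 = c • y.2 := by
    rintro c ⟨n, a, ha0, ha⟩
    let K : ℕ → Submodule F A := fun n => (G n).comap ((c • LinearMap.id).prod LinearMap.id)
    have hK : ∀ n a, a ∈ K n ↔ (c • a, a) ∈ G n := fun n a => Iff.rfl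
    obtain ⟨M', hM'⟩ := h.shift s' K (fun n a ha => (hW _ _ ((hK _ _).1 ha)).2)
      (fun n i a ha => by
        have := hl n i _ ((hK _ _).1 ha)
        rwa [hK, ← mul_smul_comm])
      (fun n i a ha => by
        have := hr n i _ ((hK _ _).1 ha)
        rwa [hK, ← smul_mul_assoc])
      ⟨n, (Submodule.ne_bot_iff _).2 ⟨a, ha, ha0⟩⟩
    refine ⟨M', fun n hn y hy => ?_⟩
    have := h1 n _ (sub_mem hy ((hK _ _).1 (hM' n hn (hW _ _ hy).2))) (by simp)
    exact sub_eq_zero.1 this
  by_cases h2 : ∀ n, ∀ y ∈ G n, y.1 = 0 → y.2 = 0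
  swap
  · push Not at h2
    obtain ⟨n, y, hy, e1, e2⟩ := h2
    refine ⟨0, scal 0 ⟨n, y.2, e2, ?_⟩⟩
    rwa [zero_smul, ← e1]
  rcases lt_trichotomy s' s with hlt | heq | hlt
  · exfalso
    obtain ⟨a, ha, ha0⟩ := h.exists_ne (M + s')
    obtain ⟨u, hu⟩ := ht M le_rfl a ha
    obtain ⟨M', hM'⟩ := h.shift s (fun n => (G n).map (LinearMap.fst F A A))
      (by rintro n _ ⟨y, hy, rfl⟩; exact (hW _ _ hy).1)
      (by rintro n i _ ⟨y, hy, rfl⟩; exact ⟨_, hl n i y hy, rfl⟩)
      (by rintro n i _ ⟨y, hy, rfl⟩; exact ⟨_, hr n i y hy, rfl⟩)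
      ⟨M, (Submodule.ne_bot_iff _).2 ⟨u, ⟨_, hu, rfl⟩, fun e => ha0 (h2 _ _ hu e)⟩⟩
    refine hs ⟨s, s', M', G, hlt, hW, hl, h1, h2, fun n hn u hu => ?_⟩
    obtain ⟨y, hy, rfl⟩ := hM' n hn hu
    exact ⟨y.2, hy⟩
  · subst heq
    have := W_fd (F := F) (x := x) (M + s')
    let π₁ : G M →ₗ[F] W F x (M + s') :=
      ((LinearMap.fst F A A).comp (G M).subtype).codRestrict _ fun y => (hW _ _ y.2).1
    let π₂ : G M →ₗ[F] W F x (M + s') :=
      ((LinearMap.snd F A A).comp (G M).subtype).codRestrict _ fun y => (hW _ _ y.2).2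
    have hb : Function.Bijective π₂ := by
      constructor
      · rw [injective_iff_map_eq_zero]
        intro y hy
        have e2 : y.1.2 = 0 := congrArg Subtype.val hy
        exact Subtype.ext (Prod.ext (h1 _ _ y.2 e2) e2)
      · intro a
        obtain ⟨u, hu⟩ := ht M le_rfl a a.2
        exact ⟨⟨_, hu⟩, rfl⟩
    let e := LinearEquiv.ofBijective π₂ hb
    have : Nontrivial (W F x (M + s')) := Submodule.nontrivial_iff_ne_bot.2 (h.ne _)
    obtain ⟨c, hc⟩ := Module.End.exists_eigenvalue (π₁ ∘ₗ e.symm.toLinearMap)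
    obtain ⟨a, ha⟩ := hc.exists_hasEigenvector
    refine ⟨c, scal c ⟨M, a, fun e => ha.2 (Subtype.ext e), ?_⟩⟩
    have e1 : ((e.symm a).1.1 : A) = c • (a : A) := congrArg Subtype.val ha.apply_eq_smul
    have e2 : ((e.symm a).1.2 : A) = a := congrArg Subtype.val (e.apply_symm_apply a)
    rw [← e1, ← e2]
    exact (e.symm a).2
  · exfalso
    refine hs ⟨s', s, M, fun n => (G n).comap (LinearEquiv.prodComm F A A).toLinearMap, hlt,
      fun n y hy => (hW _ _ hy).symm, fun n i y hy => hl n i _ hy, fun n y hy => h2 _ _ hy,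
      fun n y hy => h1 _ _ hy, ht⟩

/-- the density lemma -/
theorem dens [IsAlgClosed F] [Finite α] (g : Gr F x) (h : IsJI F x) (hs : ¬ Shift F x)
    {ι : Type*} [Fintype ι] [DecidableEq ι] (s : ι → ℕ) (E : ℕ → Submodule F (ι → A))
    (hW : ∀ n, ∀ e ∈ E n, ∀ i, e i ∈ W F x (n + s i))
    (hl : ∀ n j, ∀ e ∈ E n, (fun i => x j * e i) ∈ E (n + 1))
    (hr : ∀ n j, ∀ e ∈ E n, (fun i => e i * x j) ∈ E (n + 1))
    (hβ : ∀ β : ι → F, (∀ n, ∀ e ∈ E n, ∑ i, β i • e i = 0) → β = 0) :
    ∃ M, ∀ n, M ≤ n → ∀ i, ∀ a ∈ W F x (n + s i), Pi.single i a ∈ E n := by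
  have hrw : ∀ (w : List α) n, ∀ e ∈ E n, (fun i => e i * wd x w) ∈ E (n + w.length) := by
    intro w
    induction w with
    | nil => intro n e he; simpa using he
    | cons j w ih =>
      intro n e he
      have := ih _ _ (hr n j e he)
      rw [List.length_cons, ← add_assoc, Nat.add_right_comm]
      simpa [mul_assoc] using this
  have key : ∀ T : Finset ι, ∃ M, ∀ n, M ≤ n → ∀ a : ι → A, (∀ i ∈ T, a i ∈ W F x (n + s i)) →
      ∃ e ∈ E n, ∀ i ∈ T, e i = a i := by
    intro T
    induction T using Finset.induction_on with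
    | empty => exact ⟨0, fun n _ a _ => ⟨0, zero_mem _, by simp⟩⟩
    | insert j T hj ih =>
      obtain ⟨M, hM⟩ := ih
      let Z : Finset ι → Submodule F (ι → A) := fun T => ⨅ i ∈ T, LinearMap.ker (LinearMap.proj i)
      have hZ : ∀ T e, e ∈ Z T ↔ ∀ i ∈ T, e i = 0 := by
        intro T e
        simp [Z]
      let K : ℕ → Submodule F A := fun n => (E n ⊓ Z T).map (LinearMap.proj j)
      by_cases hK : ∃ n, K n ≠ ⊥
      · obtain ⟨M', hM'⟩ := h.shift (s j) K
          (by rintro n _ ⟨e, he, rfl⟩; exact hW _ _ he.1 j)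
          (by
            rintro n i _ ⟨e, he, rfl⟩
            exact ⟨_, ⟨hl n i e he.1, (hZ _ _).2 fun k hk => by
              simp [(hZ _ _).1 he.2 k hk]⟩, rfl⟩)
          (by
            rintro n i _ ⟨e, he, rfl⟩
            exact ⟨_, ⟨hr n i e he.1, (hZ _ _).2 fun k hk => by
              simp [(hZ _ _).1 he.2 k hk]⟩, rfl⟩) hK
        refine ⟨max M M', fun n hn a ha => ?_⟩
        obtain ⟨e, he, hea⟩ := hM n (le_of_max_le_left hn) a fun i hi =>
          ha i (Finset.mem_insert_of_mem hi)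
        obtain ⟨e', he', hea'⟩ := hM' n (le_of_max_le_right hn)
          (sub_mem (ha j (Finset.mem_insert_self _ _)) (hW _ _ he j))
        refine ⟨e + e', add_mem he he'.1, fun i hi => ?_⟩
        rcases Finset.mem_insert.1 hi with rfl | hi
        · have : e' i = a i - e i := hea'
          simp [this]
        · simp [(hZ _ _).1 he'.2 i hi, hea i hi]
      · exfalso
        push Not at hK
        have hK' : ∀ n, ∀ e ∈ E n, (∀ i ∈ T, e i = 0) → e j = 0 := by
          intro n e he h0
          have : e j ∈ K n := ⟨e, ⟨he, (hZ _ _).2 h0⟩, rfl⟩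
          rwa [hK, mem_bot] at this
        have hc : ∀ i ∈ T, ∃ (c : F) (M' : ℕ), ∀ n, M' ≤ n → ∀ e ∈ E n,
            (∀ k ∈ T.erase i, e k = 0) → e j = c • e i := by
          intro i hi
          obtain ⟨c, M', hM'⟩ := two_coord h hs (s j) (s i) M
            (fun n => (E n ⊓ Z (T.erase i)).map ((LinearMap.proj j).prod (LinearMap.proj i)))
            (by rintro n _ ⟨e, he, rfl⟩; exact ⟨hW _ _ he.1 j, hW _ _ he.1 i⟩)
            (by
              rintro n k _ ⟨e, he, rfl⟩
              exact ⟨_, ⟨hl n k e he.1, (hZ _ _).2 fun k hk => by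
                simp [(hZ _ _).1 he.2 k hk]⟩, rfl⟩)
            (by
              rintro n k _ ⟨e, he, rfl⟩
              exact ⟨_, ⟨hr n k e he.1, (hZ _ _).2 fun k hk => by
                simp [(hZ _ _).1 he.2 k hk]⟩, rfl⟩)
            (by
              rintro n _ ⟨e, he, rfl⟩ h0
              refine hK' n e he.1 fun k hk => ?_
              by_cases hki : k = i
              · subst hki; exact h0
              · exact (hZ _ _).1 he.2 k (Finset.mem_erase.2 ⟨hki, hk⟩))
            (by
              intro n hn a ha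
              obtain ⟨e, he, hea⟩ := hM n hn (Pi.single i a) fun k _ => by
                by_cases hki : k = i
                · subst hki; simpa using ha
                · simp [hki]
              refine ⟨e j, e, ⟨he, (hZ _ _).2 fun k hk => ?_⟩, ?_⟩
              · rw [hea k (Finset.mem_of_mem_erase hk), Pi.single_eq_of_ne (Finset.ne_of_mem_erase hk)]
              · have : e i = a := by rw [hea i hi, Pi.single_eq_same]
                exact Prod.ext rfl this)
          exact ⟨c, M', fun n hn e he h0 => hM' n hn _ ⟨e, ⟨he, (hZ _ _).2 h0⟩, rfl⟩⟩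
        choose! c M' hc using hc
        have hbig : ∀ n, max M (T.sup M') ≤ n → ∀ e ∈ E n, e j = ∑ i ∈ T, c i • e i := by
          intro n hn e he
          have hex : ∀ i ∈ T, ∃ e' ∈ E n, ∀ k ∈ T, e' k = (Pi.single i (e i) : ι → A) k := by
            intro i hi
            refine hM n (le_of_max_le_left hn) _ fun k _ => ?_
            by_cases hki : k = i
            · subst hki; simpa using hW _ _ he k
            · simp [hki]
          choose! e' he' hea using hex
          have h0 := hK' n (e - ∑ i ∈ T, e' i) (sub_mem he (sum_mem he')) fun k hk => by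
            rw [Pi.sub_apply, Finset.sum_apply, Finset.sum_eq_single_of_mem k hk, hea k hk k hk,
              Pi.single_eq_same, sub_self]
            intro i hi hik
            rw [hea i hi k hk, Pi.single_eq_of_ne hik.symm]
          rw [Pi.sub_apply, Finset.sum_apply, sub_eq_zero] at h0
          rw [h0]
          refine Finset.sum_congr rfl fun i hi => ?_
          rw [hc i hi n ((Finset.le_sup hi).trans (le_of_max_le_right hn)) _ (he' i hi), hea i hi i hi,
            Pi.single_eq_same]
          intro k hk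
          rw [hea i hi k (Finset.mem_of_mem_erase hk), Pi.single_eq_of_ne (Finset.ne_of_mem_erase hk)]
        have hall : ∀ n, ∀ e ∈ E n, e j - ∑ i ∈ T, c i • e i = 0 := by
          intro n e he
          refine h.ann g (max M (T.sup M')) fun w hw => ?_
          have := hbig _ (by omega) _ (hrw w n e he)
          rw [sub_mul, Finset.sum_mul, this]
          simp
        have := hβ (fun i => if i = j then 1 else if i ∈ T then - c i else 0) fun n e he => by
          rw [← hall n e he, ← Finset.sum_subset (Finset.subset_univ (insert j T)),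
            Finset.sum_insert hj, if_pos rfl, one_smul, sub_eq_add_neg, ← Finset.sum_neg_distrib]
          · congr 1
            refine Finset.sum_congr rfl fun i hi => ?_
            rw [if_neg (by rintro rfl; exact hj hi), if_pos hi, neg_smul]
          · intro i _ hi
            rw [Finset.mem_insert, not_or] at hi
            rw [if_neg hi.1, if_neg hi.2, zero_smul]
        simpa using congrFun this j
  obtain ⟨M, hM⟩ := key Finset.univ
  refine ⟨M, fun n hn i a ha => ?_⟩
  obtain ⟨e, he, hea⟩ := hM n hn (Pi.single i a) fun k _ => by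
    by_cases hki : k = i
    · subst hki; simpa using ha
    · simp [hki]
  rwa [← funext fun k => hea k (Finset.mem_univ k)]

end Cfsg.Agent.Zel.PI
end

-- part: Zel/PI/Win
section
/-!
# Windows: a minimal identity moves degree from the left factor to the right factor
-/

set_option autoImplicit false

namespace Cfsg.Agent.Zel.PI

open Submodule

variable {F A α : Type*} [Field F] [Ring A] [Algebra F A] {x : α → A}

/-- an identity on the commutators of length at least `a` -/
def Ident (x : α → A) (a : ℕ) (S : Finset ℕ) (f : List ℕ → F) : Prop :=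
  ∀ t : ℕ → FreeMagma α, (∀ i, a ≤ (t i).length) → val S f (fun i => cm x (t i)) = 0

theorem update_cm (t : ℕ → FreeMagma α) (i : ℕ) (j : α) :
    Function.update (fun k => cm x (t k)) i (x j * cm x (t i) - cm x (t i) * x j) =
      fun k => cm x (Function.update t i (FreeMagma.of j * t i) k) := by
  funext k
  by_cases h : k = i
  · subst h
    simp [cm_mul, cm_of]
  · simp [h]

theorem sum_update_length (t : ℕ → FreeMagma α) {S : Finset ℕ} {i : ℕ} (hi : i ∈ S) (j : α) :
    ∑ k ∈ S, (Function.update t i (FreeMagma.of j * t i) k).length =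
      ∑ k ∈ S, (t k).length + 1 := by
  rw [← Finset.add_sum_erase _ _ hi, ← Finset.add_sum_erase _ _ hi, Function.update_self,
    Finset.sum_congr rfl fun k hk => by rw [Function.update_of_ne (Finset.ne_of_mem_erase hk)]]
  have : (FreeMagma.of j * t i).length = 1 + (t i).length := rfl
  omega

theorem le_update_length {a : ℕ} {t : ℕ → FreeMagma α} (ht : ∀ i, a ≤ (t i).length) (i : ℕ) (j : α)
    (k : ℕ) : a ≤ (Function.update t i (FreeMagma.of j * t i) k).length := by
  by_cases h : k = i
  · subst h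
    have : (FreeMagma.of j * t k).length = 1 + (t k).length := rfl
    have := ht k
    rw [Function.update_self]
    omega
  · rw [Function.update_of_ne h]
    exact ht k

theorem comm_perms {S : Finset ℕ} {u : List ℕ} (hu : u ∈ perms S) (t : ℕ → FreeMagma α) (j : α) :
    x j * wd (fun k => cm x (t k)) u = wd (fun k => cm x (t k)) u * x j +
      ∑ i ∈ S, wd (fun k => cm x (Function.update t i (FreeMagma.of j * t i) k)) u := by
  obtain ⟨h1, h2⟩ := mem_perms.1 hu
  rw [comm_wd _ _ _ h1, h2]
  simp only [update_cm]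

theorem comm_val (S : Finset ℕ) (f : List ℕ → F) (t : ℕ → FreeMagma α) (j : α) :
    val S f (fun k => cm x (t k)) * x j = x j * val S f (fun k => cm x (t k)) -
      ∑ i ∈ S, val S f (fun k => cm x (Function.update t i (FreeMagma.of j * t i) k)) := by
  rw [eq_sub_iff_add_eq]
  simp only [val]
  rw [Finset.sum_comm, Finset.mul_sum, Finset.sum_mul, ← Finset.sum_add_distrib]
  refine Finset.sum_congr rfl fun u hu => ?_
  rw [mul_smul_comm, comm_perms hu, smul_add, smul_mul_assoc, Finset.smul_sum]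

/-- the left ideal generated by the values of a polynomial that is not an identity -/
theorem left_win (h : IsJI F x) {b : ℕ} {S : Finset ℕ} {f : List ℕ → F} (hf : ¬ Ident x b S f) :
    ∃ M, ∀ k, M ≤ k → W F x k ≤ span F {z | ∃ (t : ℕ → FreeMagma α) (c : A) (k' : ℕ),
      (∀ i, b ≤ (t i).length) ∧ c ∈ W F x k' ∧ k' + ∑ i ∈ S, (t i).length = k ∧
        z = c * val S f (fun i => cm x (t i))} := by
  refine h.shift 0 (fun k => span F {z | ∃ (t : ℕ → FreeMagma α) (c : A) (k' : ℕ),
      (∀ i, b ≤ (t i).length) ∧ c ∈ W F x k' ∧ k' + ∑ i ∈ S, (t i).length = k ∧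
        z = c * val S f (fun i => cm x (t i))}) ?_ ?_ ?_ ?_
  · intro n
    rw [span_le]
    rintro _ ⟨t, c, k', -, hc, hk, rfl⟩
    exact mul_mem_W' hc (val_mem_W S f t) hk
  · intro n j a ha
    induction ha using span_induction with
    | mem _ h =>
      obtain ⟨t, c, k', ht, hc, hk, rfl⟩ := h
      exact subset_span ⟨t, x j * c, 1 + k', ht, mul_mem_W (x_mem_W j) hc, by omega,
        (mul_assoc _ _ _).symm⟩
    | zero => simp
    | add a b _ _ h1 h2 => rw [mul_add]; exact add_mem h1 h2
    | smul c a _ h => rw [mul_smul_comm]; exact smul_mem _ _ h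
  · intro n j a ha
    induction ha using span_induction with
    | mem _ h =>
      obtain ⟨t, c, k', ht, hc, hk, rfl⟩ := h
      rw [mul_assoc, comm_val, mul_sub, Finset.mul_sum]
      refine sub_mem (subset_span ⟨t, c * x j, k' + 1, ht, mul_mem_W hc (x_mem_W j), by omega,
        (mul_assoc _ _ _).symm⟩) (sum_mem fun i hi => subset_span ⟨_, c, k',
          le_update_length ht i j, hc, ?_, rfl⟩)
      rw [sum_update_length t hi]
      omega
    | zero => simp
    | add a b _ _ h1 h2 => rw [add_mul]; exact add_mem h1 h2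
    | smul c a _ h => rw [smul_mul_assoc]; exact smul_mem _ _ h
  · unfold Ident at hf
    push Not at hf
    obtain ⟨t, ht, h0⟩ := hf
    exact ⟨_, (Submodule.ne_bot_iff _).2 ⟨_, subset_span ⟨t, 1, 0, ht, one_mem_W, rfl,
      (one_mul _).symm⟩, h0⟩⟩

/-- the right module generated by the vectors of all arrangements -/
def RE (F : Type*) [Field F] [Algebra F A] (x : α → A) (P : (ℕ → FreeMagma α) → Prop)
    (S : Finset ℕ) (n : ℕ) : Submodule F (perms S → A) :=
  span F {e | ∃ (t : ℕ → FreeMagma α) (c : A) (k : ℕ), P t ∧ c ∈ W F x k ∧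
    ∑ i ∈ S, (t i).length + k = n ∧ e = fun τ : perms S => wd (fun i => cm x (t i)) τ.1 * c}

theorem RE_mul {P : (ℕ → FreeMagma α) → Prop} {S : Finset ℕ} {n m : ℕ} {e : perms S → A}
    (he : e ∈ RE F x P S n) {c : A} (hc : c ∈ W F x m) : (fun τ => e τ * c) ∈ RE F x P S (n + m) := by
  induction he using span_induction with
  | mem _ h =>
    obtain ⟨t, c', k, ht, hc', hk, rfl⟩ := h
    exact subset_span ⟨t, c' * c, k + m, ht, mul_mem_W hc' hc, by omega, funext fun τ =>
      mul_assoc _ _ _⟩
  | zero =>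
    have : (fun τ : perms S => (0 : perms S → A) τ * c) = 0 := by funext τ; simp
    rw [this]; exact zero_mem _
  | add a b _ _ h1 h2 =>
    have : (fun τ : perms S => (a + b) τ * c) = (fun τ => a τ * c) + fun τ => b τ * c := by
      funext τ; simp [add_mul]
    rw [this]; exact add_mem h1 h2
  | smul d a _ h =>
    have : (fun τ : perms S => (d • a) τ * c) = d • fun τ => a τ * c := by
      funext τ; simp
    rw [this]; exact smul_mem _ _ h

theorem right_win [IsAlgClosed F] [Finite α] (g : Gr F x) (h : IsJI F x) (hs : ¬ Shift F x)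
    {a : ℕ} {S : Finset ℕ} (hmin : ∀ f : List ℕ → F, Ident x a S f → ∀ w ∈ perms S, f w = 0) :
    ∃ M, ∀ l, M ≤ l → ∀ τ : perms S, ∀ c ∈ W F x l, Pi.single τ c ∈
      RE F x (fun t => (∀ i, a ≤ (t i).length) ∧ ∀ i ∈ S, (t i).length ≤ M) S l := by
  obtain ⟨M, hM⟩ := dens g h hs (ι := perms S) (fun _ => 0)
    (RE F x (fun t => ∀ i, a ≤ (t i).length) S)
    (by
      intro n e he τ
      induction he using span_induction with
      | mem _ h =>
        obtain ⟨t, c', k, ht, hc', hk, rfl⟩ := h
        exact mul_mem_W' (wd_mem_W_perms τ.2 t) hc' hk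
      | zero => exact zero_mem _
      | add a b _ _ h1 h2 => exact add_mem h1 h2
      | smul d a _ h => exact smul_mem _ d h)
    (by
      intro n j e he
      induction he using span_induction with
      | mem _ h =>
        obtain ⟨t, c, k, ht, hc, hk, rfl⟩ := h
        have : (fun τ : perms S => x j * (wd (fun i => cm x (t i)) τ.1 * c)) =
            (fun τ : perms S => wd (fun i => cm x (t i)) τ.1 * (x j * c)) + ∑ i ∈ S,
              fun τ : perms S =>
                wd (fun k => cm x (Function.update t i (FreeMagma.of j * t i) k)) τ.1 * c := by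
          funext τ
          rw [← mul_assoc, comm_perms τ.2, add_mul, Finset.sum_mul, Pi.add_apply, Finset.sum_apply,
            mul_assoc]
        rw [this]
        refine add_mem (subset_span ⟨t, x j * c, 1 + k, ht, mul_mem_W (x_mem_W j) hc, by omega,
          rfl⟩) (sum_mem fun i hi => subset_span ⟨_, c, k, le_update_length ht i j, hc, ?_, rfl⟩)
        rw [sum_update_length t hi]
        omega
      | zero =>
        have : (fun τ : perms S => x j * (0 : perms S → A) τ) = 0 := by funext τ; simp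
        rw [this]; exact zero_mem _
      | add a b _ _ h1 h2 =>
        have : (fun τ : perms S => x j * (a + b) τ) = (fun τ => x j * a τ) + fun τ => x j * b τ := by
          funext τ; simp [mul_add]
        rw [this]; exact add_mem h1 h2
      | smul d a _ h =>
        have : (fun τ : perms S => x j * (d • a) τ) = d • fun τ => x j * a τ := by
          funext τ; simp
        rw [this]; exact smul_mem _ _ h)
    (fun n j e he => RE_mul he (x_mem_W j))
    (by
      intro β hβ
      have := hmin (fun w => if hw : w ∈ perms S then β ⟨w, hw⟩ else 0) fun t ht => by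
        have := hβ _ _ (subset_span ⟨t, 1, 0, ht, one_mem_W, rfl, rfl⟩)
        rw [val, ← Finset.sum_coe_sort, ← this]
        refine Finset.sum_congr rfl fun τ _ => ?_
        rw [dif_pos τ.2, mul_one]
      funext τ
      simpa using this τ.1 τ.2)
  refine ⟨M, fun l hl τ c hc => ?_⟩
  obtain ⟨m, rfl⟩ := Nat.exists_eq_add_of_le hl
  refine W_add_le (I := (RE F x (fun t => (∀ i, a ≤ (t i).length) ∧ ∀ i ∈ S, (t i).length ≤ M) S
    (M + m)).comap (LinearMap.single F (fun _ : perms S => A) τ)) ?_ hc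
  intro c hc c' hc'
  have h1 : Pi.single τ c ∈
      RE F x (fun t => (∀ i, a ≤ (t i).length) ∧ ∀ i ∈ S, (t i).length ≤ M) S M := by
    refine span_mono ?_ (hM M le_rfl τ c hc)
    rintro _ ⟨t, c, k, ht, hc, hk, rfl⟩
    refine ⟨t, c, k, ⟨ht, fun i hi => ?_⟩, hc, hk, rfl⟩
    have := Finset.single_le_sum (f := fun i => (t i).length) (fun _ _ => Nat.zero_le _) hi
    omega
  have h2 := RE_mul h1 hc'
  have : (fun σ => (Pi.single τ c : perms S → A) σ * c') = Pi.single τ (c * c') := by
    funext σ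
    by_cases e : σ = τ
    · subst e; simp
    · simp [e]
  rwa [this] at h2

theorem sum_lt_of_window {U S₁ : Finset ℕ} {l : ℕ → ℕ} {M : ℕ} (hne : U ≠ S₁)
    (hc : U.card ≤ S₁.card) (h1 : ∀ i ∈ S₁, M < l i) (h2 : ∀ i ∈ U, i ∉ S₁ → l i ≤ M) :
    ∑ i ∈ U, l i < ∑ i ∈ S₁, l i := by
  rw [← Finset.sum_inter_add_sum_sdiff U S₁, ← Finset.sum_inter_add_sum_sdiff S₁ U,
    Finset.inter_comm S₁ U]
  have e1 : ∑ i ∈ U \ S₁, l i ≤ (U \ S₁).card • M :=
    Finset.sum_le_card_nsmul _ _ _ fun i hi =>
      h2 i (Finset.mem_sdiff.1 hi).1 (Finset.mem_sdiff.1 hi).2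
  have e2 : (S₁ \ U).card • (M + 1) ≤ ∑ i ∈ S₁ \ U, l i :=
    Finset.card_nsmul_le_sum _ _ _ fun i hi => h1 i (Finset.mem_sdiff.1 hi).1
  have e3 : (U \ S₁).card ≤ (S₁ \ U).card := Finset.card_sdiff_le_card_sdiff_iff.2 hc
  have e4 : 0 < (S₁ \ U).card := by
    rw [Finset.card_pos, Finset.sdiff_nonempty]
    intro hsub
    exact hne (Finset.eq_of_subset_of_card_le hsub hc).symm
  simp only [smul_eq_mul] at e1 e2
  nlinarith

theorem wd_congr {β : Type*} {z z' : β → A} {u : List β} (h : ∀ i ∈ u, z i = z' i) :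
    wd z u = wd z' u := by
  unfold wd
  rw [List.map_congr_left h]

/-- the key step -/
theorem window [IsAlgClosed F] [Finite α] (g : Gr F x) (h : IsJI F x) (hs : ¬ Shift F x)
    {a : ℕ} {S : Finset ℕ} {f : List ℕ → F} (hS : S.Nonempty) (hf : ∃ w ∈ perms S, f w ≠ 0)
    (hid : Ident x a S f)
    (hmin : ∀ (b : ℕ) (S' : Finset ℕ) (f' : List ℕ → F), S'.card < S.card → Ident x b S' f' →
      ∀ w ∈ perms S', f' w = 0) :
    ∃ M₁ M₂ : ℕ, ∀ {ι : Type} (v : ι → FreeMagma α), (∀ i, a ≤ (v i).length) →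
      ∀ k l, M₁ ≤ k → M₂ ≤ l → ∀ c ∈ W F x k, ∀ c' ∈ W F x l,
        (fun i => c * cm x (v i) * c') ∈ span F {e : ι → A | ∃ k' l', ∃ d ∈ W F x k',
          ∃ d' ∈ W F x l', k' < k ∧ k' + l' = k + l ∧ e = fun i => d * cm x (v i) * d'} := by
  classical
  obtain ⟨i₀, hi₀⟩ := hS
  -- a word with the longest part in front of `i₀`
  obtain ⟨u₀, τ₀, hw₀, hf₀, hmax⟩ : ∃ u₀ τ₀ : List ℕ, u₀ ++ i₀ :: τ₀ ∈ perms S ∧
      f (u₀ ++ i₀ :: τ₀) ≠ 0 ∧ ∀ u τ : List ℕ, u ++ i₀ :: τ ∈ perms S → f (u ++ i₀ :: τ) ≠ 0 →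
        u.length ≤ u₀.length := by
    obtain ⟨w, hw, hmax⟩ := Finset.exists_max_image ((perms S).filter fun w => f w ≠ 0)
      (fun w => w.idxOf i₀) (by
        obtain ⟨w, hw, h0⟩ := hf
        exact ⟨w, Finset.mem_filter.2 ⟨hw, h0⟩⟩)
    obtain ⟨hw, h0⟩ := Finset.mem_filter.1 hw
    have hidx : ∀ u τ : List ℕ, u ++ i₀ :: τ ∈ perms S → (u ++ i₀ :: τ).idxOf i₀ = u.length := by
      intro u τ hm
      have hn := (mem_perms.1 hm).1
      rw [List.idxOf_append_of_notMem, List.idxOf_cons_self, add_zero]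
      intro hu
      exact (List.nodup_append.1 hn).2.2 _ hu _ (List.mem_cons_self) rfl
    obtain ⟨u₀, τ₀, rfl⟩ := List.append_of_mem (a := i₀) (l := w) (by
      rw [← List.mem_toFinset, (mem_perms.1 hw).2]; exact hi₀)
    refine ⟨u₀, τ₀, hw, h0, fun u τ hm h0' => ?_⟩
    have := hmax _ (Finset.mem_filter.2 ⟨hm, h0'⟩)
    rwa [hidx _ _ hm, hidx _ _ hw] at this
  have split : ∀ u τ : List ℕ, u ++ i₀ :: τ ∈ perms S ↔ u.Nodup ∧ τ.Nodup ∧ i₀ ∉ u ∧ i₀ ∉ τ ∧
      Disjoint u.toFinset τ.toFinset ∧ u.toFinset ∪ insert i₀ τ.toFinset = S := by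
    intro u τ
    rw [mem_perms, List.nodup_append, List.nodup_cons, List.toFinset_append, List.toFinset_cons,
      Finset.disjoint_left]
    simp only [List.mem_cons, List.mem_toFinset]
    constructor
    · rintro ⟨⟨h1, ⟨h2, h3⟩, h4⟩, h5⟩
      exact ⟨h1, h3, fun hu => h4 _ hu _ (Or.inl rfl) rfl, h2,
        fun b hb hb' => h4 _ hb _ (Or.inr hb') rfl, h5⟩
    · rintro ⟨h1, h2, h3, h4, h5, h6⟩
      refine ⟨⟨h1, ⟨h4, h2⟩, ?_⟩, h6⟩
      rintro b hb _ (rfl | hb') rfl
      · exact h3 hb
      · exact h5 hb hb'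
  obtain ⟨hn1, hn2, hi1, hi2, hdisj, hun⟩ := (split _ _).1 hw₀
  set S₁ := u₀.toFinset with hS₁
  set S₂ := τ₀.toFinset with hS₂
  have hu₀ : u₀ ∈ perms S₁ := mem_perms.2 ⟨hn1, rfl⟩
  have hτ₀ : τ₀ ∈ perms S₂ := mem_perms.2 ⟨hn2, rfl⟩
  have hi1' : i₀ ∉ S₁ := by simpa [hS₁] using hi1
  have hi2' : i₀ ∉ S₂ := by simpa [hS₂] using hi2
  have hlen : S₁.card + 1 + S₂.card = S.card := by
    rw [← length_of_mem_perms hw₀, ← length_of_mem_perms hu₀, ← length_of_mem_perms hτ₀]
    simp only [List.length_append, List.length_cons]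
    omega
  obtain ⟨M₂, hM₂⟩ := right_win g h hs (a := a) (S := S₂) fun f' => hmin a S₂ f' (by omega)
  obtain ⟨M₁, hM₁⟩ := left_win h (b := max a (M₂ + 1)) (S := S₁)
    (f := fun u => f (u ++ i₀ :: τ₀)) fun hI => hf₀ (hmin _ S₁ _ (by omega) hI u₀ hu₀)
  refine ⟨M₁, M₂, fun {ι} v hv k l hk hl c hc c' hc' => ?_⟩
  set H := span F {e : ι → A | ∃ k' l', ∃ d ∈ W F x k',
    ∃ d' ∈ W F x l', k' < k ∧ k' + l' = k + l ∧ e = fun i => d * cm x (v i) * d'} with hH
  have hc1 := hM₁ k hk hc
  clear hc
  induction hc1 using span_induction with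
  | zero =>
    have : (fun i => (0 : A) * cm x (v i) * c') = 0 := by funext i; simp
    rw [this]; exact zero_mem _
  | add c₁ c₂ _ _ h1 h2 =>
    have : (fun i => (c₁ + c₂) * cm x (v i) * c') =
        (fun i => c₁ * cm x (v i) * c') + fun i => c₂ * cm x (v i) * c' := by
      funext i; simp [add_mul]
    rw [this]; exact add_mem h1 h2
  | smul d c₁ _ h1 =>
    have : (fun i => (d • c₁) * cm x (v i) * c') = d • fun i => c₁ * cm x (v i) * c' := by
      funext i; simp
    rw [this]; exact smul_mem _ _ h1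
  | mem _ hz =>
  obtain ⟨t, c, k', ht, hc, hk', rfl⟩ := hz
  let Λ : (perms S₂ → A) →ₗ[F] (ι → A) := LinearMap.pi fun i => ∑ τ : perms S₂,
    (LinearMap.mulLeft F (c * val S₁ (fun u => f (u ++ i₀ :: τ.1)) (fun i => cm x (t i)) *
      cm x (v i))).comp (LinearMap.proj τ)
  have hΛ : ∀ e i, Λ e i = ∑ τ : perms S₂,
      c * val S₁ (fun u => f (u ++ i₀ :: τ.1)) (fun i => cm x (t i)) * cm x (v i) * e τ := by
    intro e i
    simp [Λ, mul_assoc]
  have e0 : (fun i => c * val S₁ (fun u => f (u ++ i₀ :: τ₀)) (fun i => cm x (t i)) * cm x (v i) * c')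
      = Λ (Pi.single ⟨τ₀, hτ₀⟩ c') := by
    funext i
    rw [hΛ, Finset.sum_eq_single ⟨τ₀, hτ₀⟩, Pi.single_eq_same]
    · intro τ _ hτ
      rw [Pi.single_eq_of_ne hτ, mul_zero]
    · simp
  rw [e0]
  refine (span_le.2 ?_ : RE F x _ S₂ l ≤ H.comap Λ) (hM₂ l hl ⟨τ₀, hτ₀⟩ c' hc')
  rintro _ ⟨t', d, l', ⟨ht', ht''⟩, hd, hl', rfl⟩
  -- the substitution
  let T₀ : ℕ → FreeMagma α := fun j => if j ∈ S₁ then t j else t' j
  let T : ι → ℕ → FreeMagma α := fun i => Function.update T₀ i₀ (v i)
  have hT : ∀ i j, a ≤ (T i j).length := by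
    intro i j
    by_cases e : j = i₀
    · subst e
      simpa [T] using hv i
    · simp only [T, Function.update_of_ne e, T₀]
      split_ifs
      · exact le_of_max_le_left (ht j)
      · exact ht' j
  have hwd : ∀ i (u τ : List ℕ), u ++ i₀ :: τ ∈ perms S →
      wd (fun j => cm x (T i j)) (u ++ i₀ :: τ) =
        wd (fun j => cm x (T₀ j)) u * cm x (v i) * wd (fun j => cm x (T₀ j)) τ := by
    intro i u τ hm
    obtain ⟨-, -, h3, h4, -, -⟩ := (split _ _).1 hm
    rw [wd_append, wd_cons, mul_assoc]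
    congr 1
    · refine wd_congr fun j hj => ?_
      simp only [T]
      rw [Function.update_of_ne (by rintro rfl; exact h3 hj)]
    · congr 1
      · simp [T]
      · refine wd_congr fun j hj => ?_
        simp only [T]
        rw [Function.update_of_ne (by rintro rfl; exact h4 hj)]
  let good : Finset (List ℕ) := (perms S₁ ×ˢ perms S₂).image fun y => y.1 ++ i₀ :: y.2
  have hgm : ∀ u ∈ perms S₁, ∀ τ ∈ perms S₂, u ++ i₀ :: τ ∈ perms S := by
    intro u hu τ hτ
    obtain ⟨h1, h2⟩ := mem_perms.1 hu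
    obtain ⟨h3, h4⟩ := mem_perms.1 hτ
    refine (split _ _).2 ⟨h1, h3, ?_, ?_, ?_, ?_⟩
    · rwa [← List.mem_toFinset, h2]
    · rwa [← List.mem_toFinset, h4]
    · rwa [h2, h4]
    · rwa [h2, h4]
  have hgood : good ⊆ perms S := by
    intro w hw
    obtain ⟨y, hy, rfl⟩ := Finset.mem_image.1 hw
    exact hgm _ (Finset.mem_product.1 hy).1 _ (Finset.mem_product.1 hy).2
  have hsum : ∀ i, ∑ w ∈ good, f w • wd (fun j => cm x (T i j)) w = ∑ τ : perms S₂,
      val S₁ (fun u => f (u ++ i₀ :: τ.1)) (fun i => cm x (t i)) * cm x (v i) *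
        wd (fun i => cm x (t' i)) τ.1 := by
    intro i
    rw [Finset.sum_image, Finset.sum_product_right, ← Finset.sum_coe_sort (perms S₂)]
    · refine Finset.sum_congr rfl fun τ _ => ?_
      rw [val, Finset.sum_mul, Finset.sum_mul]
      refine Finset.sum_congr rfl fun u hu => ?_
      rw [hwd i u τ.1 (hgm u hu _ τ.2), smul_mul_assoc, smul_mul_assoc]
      have a1 : wd (fun j => cm x (T₀ j)) u = wd (fun j => cm x (t j)) u := by
        refine wd_congr fun j hj => ?_
        simp only [T₀]
        rw [if_pos (by rw [← (mem_perms.1 hu).2]; simpa using hj)]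
      have a2 : wd (fun j => cm x (T₀ j)) τ.1 = wd (fun j => cm x (t' j)) τ.1 := by
        refine wd_congr fun j hj => ?_
        simp only [T₀]
        rw [if_neg]
        exact Finset.disjoint_right.1 hdisj (by rw [← (mem_perms.1 τ.2).2]; simpa using hj)
      rw [a1, a2]
    · rintro ⟨u, τ⟩ hy ⟨u', τ'⟩ hy' e
      simp only [Finset.coe_product, Set.mem_prod, Finset.mem_coe] at hy hy'
      obtain ⟨e1, e2⟩ := List.append_inj e
        ((length_of_mem_perms hy.1).trans (length_of_mem_perms hy'.1).symm)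
      exact Prod.ext e1 (List.cons_injective e2)
  have e1 : Λ (fun τ : perms S₂ => wd (fun i => cm x (t' i)) τ.1 * d) =
      - ∑ w ∈ perms S \ good, f w • fun i => c * wd (fun j => cm x (T i j)) w * d := by
    funext i
    have h0 := hid (T i) (hT i)
    rw [val, ← Finset.sum_sdiff hgood, hsum, add_comm, add_eq_zero_iff_eq_neg] at h0
    have h1 := congrArg (fun z => c * z * d) h0
    simp only [Finset.mul_sum, Finset.sum_mul, mul_neg, neg_mul] at h1
    rw [hΛ, Pi.neg_apply, Finset.sum_apply]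
    simpa [mul_assoc] using h1
  rw [SetLike.mem_coe, mem_comap, e1]
  refine neg_mem (sum_mem fun w hw => ?_)
  by_cases hfw : f w = 0
  · rw [hfw, zero_smul]; exact zero_mem _
  refine smul_mem _ _ (subset_span ?_)
  obtain ⟨hw, hng⟩ := Finset.mem_sdiff.1 hw
  obtain ⟨u, τ, rfl⟩ := List.append_of_mem (a := i₀) (l := w) (by
    rw [← List.mem_toFinset, (mem_perms.1 hw).2]; exact hi₀)
  obtain ⟨h1, h2, h3, h4, h5, h6⟩ := (split _ _).1 hw
  have hu : u ∈ perms u.toFinset := mem_perms.2 ⟨h1, rfl⟩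
  have hτ : τ ∈ perms τ.toFinset := mem_perms.2 ⟨h2, rfl⟩
  have s1 : ∑ j ∈ S₁, (T₀ j).length = ∑ j ∈ S₁, (t j).length :=
    Finset.sum_congr rfl fun j hj => by simp only [T₀]; rw [if_pos hj]
  have s2 : ∑ j ∈ S₂, (T₀ j).length = ∑ j ∈ S₂, (t' j).length :=
    Finset.sum_congr rfl fun j hj => by
      simp only [T₀]; rw [if_neg (Finset.disjoint_right.1 hdisj hj)]
  have s3 := (sum_map_perms hw fun j => (T₀ j).length).trans
    (sum_map_perms hw₀ fun j => (T₀ j).length).symm
  simp only [List.map_append, List.map_cons, List.sum_append, List.sum_cons] at s3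
  rw [sum_map_perms hu, sum_map_perms hτ, sum_map_perms hu₀, sum_map_perms hτ₀] at s3
  have s4 : ∑ j ∈ u.toFinset, (T₀ j).length < ∑ j ∈ S₁, (T₀ j).length := by
    refine sum_lt_of_window (M := M₂) ?_ ?_ ?_ ?_
    · intro e
      refine hng (Finset.mem_image.2 ⟨(u, τ), Finset.mem_product.2 ⟨e ▸ hu, ?_⟩, rfl⟩)
      refine mem_perms.2 ⟨h2, ?_⟩
      rw [e] at h5 h6
      ext j
      have a1 := Finset.ext_iff.1 (h6.trans hun.symm) j
      have a2 : j ∈ S₁ → j ∉ τ.toFinset := fun hj => Finset.disjoint_left.1 h5 hj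
      have a3 : j ∈ S₁ → j ∉ S₂ := fun hj => Finset.disjoint_left.1 hdisj hj
      simp only [Finset.mem_union, Finset.mem_insert] at a1
      by_cases ej : j = i₀
      · subst ej
        simp [h4, hi2']
      · simp only [ej, false_or] at a1
        constructor
        · intro hj
          exact (a1.1 (Or.inr hj)).resolve_left fun h' => a2 h' hj
        · intro hj
          exact (a1.2 (Or.inr hj)).resolve_left fun h' => a3 h' hj
    · rw [← length_of_mem_perms hu, ← length_of_mem_perms hu₀]
      exact hmax u τ hw hfw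
    · intro j hj
      simp only [T₀]
      rw [if_pos hj]
      exact le_of_max_le_right (ht j)
    · intro j hj hj'
      simp only [T₀]
      rw [if_neg hj']
      refine ht'' j ?_
      have a1 : j ∈ S₁ ∪ insert i₀ S₂ := by
        rw [hun, ← h6]
        exact Finset.mem_union_left _ hj
      simp only [Finset.mem_union, Finset.mem_insert] at a1
      rcases a1 with a1 | rfl | a1
      · exact absurd a1 hj'
      · exact absurd (List.mem_toFinset.1 hj) h3
      · exact a1
  refine ⟨_, _, _, mul_mem_W hc (wd_mem_W_perms hu T₀), _, mul_mem_W (wd_mem_W_perms hτ T₀) hd,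
    by omega, by omega, ?_⟩
  funext i
  rw [hwd i u τ hw]
  simp only [mul_assoc]

end Cfsg.Agent.Zel.PI
end

-- part: Zel/PI/Cnt
section
/-!
# The count: a just infinite graded algebra with nilpotent commutators has no identity
-/

set_option autoImplicit false

universe u

namespace Cfsg.Agent.Zel.PI

open Submodule Module

section

variable {F A α : Type*} [Field F] [Ring A] [Algebra F A] {x : α → A}

theorem finrank_map₂_le {M N P : Type*} [AddCommGroup M] [Module F M] [AddCommGroup N] [Module F N]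
    [AddCommGroup P] [Module F P] (B : M →ₗ[F] N →ₗ[F] P) (p : Submodule F M) (q : Submodule F N)
    [FiniteDimensional F p] [FiniteDimensional F q] :
    FiniteDimensional F (map₂ B p q) ∧ finrank F (map₂ B p q) ≤ finrank F p * finrank F q := by
  rw [TensorProduct.map₂_eq_range_lift_comp_mapIncl]
  refine ⟨inferInstance, (LinearMap.finrank_range_le _).trans ?_⟩
  rw [Module.finrank_tensorProduct]

theorem le_finrank_U [Finite α] (g : Gr F x) (h : IsJI F x) (X : ℕ) : X ≤ finrank F (U F x X) := by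
  induction X with
  | zero => exact Nat.zero_le _
  | succ X ih =>
    have := U_fd (F := F) (x := x) (X + 1)
    refine Nat.succ_le_of_lt (ih.trans_lt (Submodule.finrank_lt_finrank_of_lt ?_))
    refine lt_of_le_of_ne (U_le fun k hk => W_le_U (by omega)) fun e => ?_
    obtain ⟨a, ha, h0⟩ := h.exists_ne X
    have h1 : U F x X ≤ LinearMap.ker (g.p X) := U_le fun k hk b hb => g.p_ne hb hk.ne
    have h2 : a ∈ U F x X := e ▸ W_le_U (Nat.lt_succ_self X) ha
    exact h0 ((g.p_self ha).symm.trans (h1 h2))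

theorem exists_indep [Finite α] (hf : ¬ FiniteDimensional F (span F (Set.range (cm x)))) (a r : ℕ) :
    ∃ v : Fin r → FreeMagma α, (∀ i, a ≤ (v i).length) ∧
      LinearIndependent F fun i => cm x (v i) := by
  obtain ⟨b, hb, hsp, hli⟩ := exists_linearIndependent F (cm x '' {t | a ≤ t.length})
  have hinf : b.Infinite := by
    intro hfin
    apply hf
    have := FiniteDimensional.span_of_finite F hfin
    have := U_fd (F := F) (x := x) a
    refine Submodule.finiteDimensional_of_le (S₂ := span F b ⊔ U F x a) (span_le.2 ?_)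
    rintro _ ⟨t, rfl⟩
    by_cases ht : a ≤ t.length
    · exact mem_sup_left (hsp ▸ subset_span ⟨t, ht, rfl⟩)
    · exact mem_sup_right (W_le_U (by omega) (cm_mem_W t))
  let e : Fin r → b := fun i => hinf.natEmbedding b i
  have he : Function.Injective e := (hinf.natEmbedding b).injective.comp Fin.val_injective
  choose v hv hve using fun i => hb (e i).2
  refine ⟨v, hv, ?_⟩
  simp only [hve]
  exact hli.comp e he

theorem count [IsAlgClosed F] [Finite α] (g : Gr F x) (h : IsJI F x) (hs : ¬ Shift F x)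
    (hf : ¬ FiniteDimensional F (span F (Set.range (cm x)))) : ¬ HasPI F x := by
  classical
  intro hP
  have hex : ∃ N, ∃ (a : ℕ) (S : Finset ℕ) (f : List ℕ → F), S.card = N ∧
      (∃ w ∈ perms S, f w ≠ 0) ∧ Ident x a S f := by
    obtain ⟨S, f, h1, h2⟩ := hP
    exact ⟨_, 0, S, f, rfl, h1, fun t _ => h2 t⟩
  obtain ⟨a, S, f, hc, hf0, hid⟩ := Nat.find_spec hex
  have hmin : ∀ (b : ℕ) (S' : Finset ℕ) (f' : List ℕ → F), S'.card < S.card → Ident x b S' f' →
      ∀ w ∈ perms S', f' w = 0 := by
    intro b S' f' hlt hI w hw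
    by_contra h0
    exact Nat.find_min hex (hc ▸ hlt) ⟨b, S', f', rfl, ⟨w, hw, h0⟩, hI⟩
  have hS : S.Nonempty := by
    rw [Finset.nonempty_iff_ne_empty]
    rintro rfl
    obtain ⟨v, hv, -⟩ := exists_indep hf a 1
    obtain ⟨w, hw, h0⟩ := hf0
    have hp : perms ∅ = {[]} := by
      ext u
      simp only [mem_perms, List.toFinset_eq_empty_iff, Finset.mem_singleton]
      constructor
      · exact fun h => h.2
      · rintro rfl; simp
    have h1 := hid (fun _ => v 0) fun _ => hv 0
    rw [hp, Finset.mem_singleton] at hw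
    rw [val, hp, Finset.sum_singleton, wd_nil, ← hw, smul_eq_zero] at h1
    obtain ⟨c, -, hc0⟩ := h.exists_ne 0
    exact hc0 (by rw [← one_mul c, h1.resolve_left h0, zero_mul])
  obtain ⟨M₁, M₂, hM⟩ := window g h hs hS hf0 hid hmin
  have hU := fun X => U_fd (F := F) (x := x) X
  set C := finrank F (U F x M₁) + finrank F (U F x M₂) with hC
  obtain ⟨v, hv, hli⟩ := exists_indep hf a (C + 1)
  let B : A →ₗ[F] A →ₗ[F] (Fin (C + 1) → A) :=
    LinearMap.mk₂ F (fun c c' i => c * cm x (v i) * c')
      (fun _ _ _ => funext fun i => by simp [add_mul]) (fun _ _ _ => funext fun i => by simp)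
      (fun _ _ _ => funext fun i => by simp [mul_add]) (fun _ _ _ => funext fun i => by simp)
  have hB : ∀ c c', B c c' = fun i => c * cm x (v i) * c' := fun _ _ => rfl
  let E : ℕ → Submodule F (Fin (C + 1) → A) := fun n => span F {e | ∃ k l, ∃ c ∈ W F x k,
    ∃ c' ∈ W F x l, k + l = n ∧ e = B c c'}
  obtain ⟨M, hE⟩ := dens g h hs (fun i => (v i).length) E
    (by
      intro n e he i
      induction he using span_induction with
      | mem _ h =>
        obtain ⟨k, l, c, hc, c', hc', hk, rfl⟩ := h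
        exact mul_mem_W' (mul_mem_W hc (cm_mem_W _)) hc' (by omega)
      | zero => exact zero_mem _
      | add a b _ _ h1 h2 => exact add_mem h1 h2
      | smul d a _ h => exact smul_mem _ d h)
    (by
      intro n j e he
      refine (span_le.2 ?_ : E n ≤ (E (n + 1)).comap ((LinearMap.mulLeft F (x j)).compLeft _)) he
      rintro _ ⟨k, l, c, hc, c', hc', hk, rfl⟩
      refine subset_span ⟨1 + k, l, _, mul_mem_W (x_mem_W j) hc, c', hc', by omega, ?_⟩
      funext i
      simp [hB, mul_assoc])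
    (by
      intro n j e he
      refine (span_le.2 ?_ : E n ≤ (E (n + 1)).comap ((LinearMap.mulRight F (x j)).compLeft _)) he
      rintro _ ⟨k, l, c, hc, c', hc', hk, rfl⟩
      refine subset_span ⟨k, l + 1, c, hc, _, mul_mem_W hc' (x_mem_W j), by omega, ?_⟩
      funext i
      simp [hB, mul_assoc])
    (by
      intro β hβ
      have := hβ 0 _ (subset_span ⟨0, 0, 1, one_mem_W, 1, one_mem_W, rfl, rfl⟩)
      simp only [hB, one_mul, mul_one] at this
      exact funext (Fintype.linearIndependent_iff.1 hli β this))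
  have hH : ∀ X k l, k + l < X → ∀ c ∈ W F x k, ∀ c' ∈ W F x l,
      B c c' ∈ map₂ B (U F x M₁) (U F x X) ⊔ map₂ B (U F x X) (U F x M₂) := by
    intro X k
    induction k using Nat.strong_induction_on with
    | _ k ih =>
      intro l hX c hc c' hc'
      by_cases hk : k < M₁
      · exact mem_sup_left (apply_mem_map₂ _ (W_le_U hk hc) (W_le_U (by omega) hc'))
      by_cases hl : l < M₂
      · exact mem_sup_right (apply_mem_map₂ _ (W_le_U (by omega) hc) (W_le_U hl hc'))
      refine span_le.2 ?_ (hM v hv k l (by omega) (by omega) c hc c' hc')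
      rintro _ ⟨k', l', d, hd, d', hd', h1, h2, rfl⟩
      exact ih k' h1 l' (by omega) d hd d' hd'
  -- the count
  let L := M + ∑ i, (v i).length
  let Q : ℕ → Submodule F (Fin (C + 1) → A) := fun X => pi Set.univ fun _ => U F x X
  have hQ : ∀ X, FiniteDimensional F (Q X) ∧ finrank F (Q X) = (C + 1) * finrank F (U F x X) := by
    intro X
    let e : Q X ≃ₗ[F] (Fin (C + 1) → U F x X) :=
      { toFun := fun y i => ⟨y.1 i, y.2 i trivial⟩
        invFun := fun y => ⟨fun i => y i, fun i _ => (y i).2⟩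
        map_add' := fun _ _ => rfl
        map_smul' := fun _ _ => rfl
        left_inv := fun _ => rfl
        right_inv := fun _ => rfl }
    refine ⟨e.symm.finiteDimensional, ?_⟩
    rw [e.finrank_eq, Module.finrank_pi_fintype]
    simp
  have hle : ∀ X, Q X ≤ (map₂ B (U F x M₁) (U F x X) ⊔ map₂ B (U F x X) (U F x M₂)) ⊔ Q L := by
    intro X y hy
    rw [← Finset.univ_sum_single y]
    refine sum_mem fun i _ => ?_
    refine (U_le ?_ : U F x X ≤ comap (LinearMap.single F (fun _ : Fin (C + 1) => A) i)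
      ((map₂ B (U F x M₁) (U F x X) ⊔ map₂ B (U F x X) (U F x M₂)) ⊔ Q L)) (hy i trivial)
    intro m hm c hc
    by_cases hL : m < L
    · refine mem_sup_right fun j _ => ?_
      by_cases e : j = i
      · subst e
        simpa using W_le_U hL hc
      · simp [e]
    · have := Finset.single_le_sum (f := fun i => (v i).length) (fun _ _ => Nat.zero_le _)
        (Finset.mem_univ i)
      obtain ⟨n, rfl⟩ : ∃ n, m = n + (v i).length := ⟨m - (v i).length, by omega⟩
      refine mem_sup_left (span_le.2 ?_ (hE n (by omega) i c hc))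
      rintro _ ⟨k, l, d, hd, d', hd', hk, rfl⟩
      exact hH X k l (by omega) d hd d' hd'
  have hX := le_finrank_U g h (finrank F (Q L) + 1)
  set X := finrank F (Q L) + 1 with hXdef
  obtain ⟨f1, r1⟩ := finrank_map₂_le B (U F x M₁) (U F x X)
  obtain ⟨f2, r2⟩ := finrank_map₂_le B (U F x X) (U F x M₂)
  have f3 := (hQ L).1
  have r3 := Submodule.finrank_mono (hle X)
  have r4 := Submodule.finrank_add_le_finrank_add_finrank
    (map₂ B (U F x M₁) (U F x X) ⊔ map₂ B (U F x X) (U F x M₂)) (Q L)
  have r5 := Submodule.finrank_add_le_finrank_add_finrank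
    (map₂ B (U F x M₁) (U F x X)) (map₂ B (U F x X) (U F x M₂))
  have r6 : (C + 1) * finrank F (U F x X) = finrank F (U F x M₁) * finrank F (U F x X) +
      finrank F (U F x X) * finrank F (U F x M₂) + finrank F (U F x X) := by
    rw [hC]; ring
  rw [(hQ X).2, r6] at r3
  omega

end

/-- the core of Zelmanov's theorem -/
theorem core (hJ : JacBox.{u}) (F : Type) (A : Type u) [Field F] [IsAlgClosed F] [Ring A]
    [Algebra F A] (d : ℕ) (x : Fin d → A) (g : Gr F x) (h : IsJI F x)
    (hn : ∀ t, IsNilpotent (cm x t)) (hP : HasPI F x) : False := by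
  refine count g h (not_shift hJ g h hn) (fun hf => ?_) hP
  obtain ⟨K, hK⟩ := hJ.wd_eq_zero hn hf
  exact h.ne K (le_bot_iff.1 (W_le fun w hw => (mem_bot F).2 (hK w hw.ge)))

end Cfsg.Agent.Zel.PI
end

-- part: Zel/PI/Jac
section
/-!
# Jacobson's theorem on weakly closed sets

A set of nilpotent elements closed under commutators which spans a finite dimensional space is
nilpotent.
-/

set_option autoImplicit false

universe u

namespace Cfsg.Agent.Zel.PI

section

variable {F A : Type*} [Field F] [Ring A] [Algebra F A]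

theorem jac_prod_mem (U : Submodule F A) (l : List A) (h : ∀ a ∈ l, a ∈ U) :
    l.prod ∈ U ^ l.length := by
  induction l with
  | nil => simp [Submodule.one_eq_span, Submodule.mem_span_singleton_self]
  | cons a l ih =>
    rw [List.prod_cons, List.length_cons, pow_succ']
    exact Submodule.mul_mem_mul (h a (by simp)) (ih fun b hb => h b (by simp [hb]))

theorem jac_pow_bot (U : Submodule F A) {K n : ℕ} (hK : U ^ K = ⊥) (h : K ≤ n) : U ^ n = ⊥ := by
  obtain ⟨m, rfl⟩ := Nat.exists_eq_add_of_le h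
  rw [pow_add, hK, Submodule.bot_mul]

/-- adjoining a nilpotent normalizing element keeps a subspace nilpotent -/
theorem jac_step (U : Submodule F A) {K : ℕ} (hK : U ^ K = ⊥) (w : A) (hw : IsNilpotent w)
    (hn : ∀ s ∈ U, w * s - s * w ∈ U) : ∃ N : ℕ, (U ⊔ Submodule.span F {w}) ^ N = ⊥ := by
  obtain ⟨m, hm⟩ := hw
  set V : Submodule F A := Submodule.span F {w} with hV
  have hVU : V * U ≤ U * V ⊔ U := by
    rw [Submodule.mul_le]
    intro v hv s hs
    obtain ⟨c, rfl⟩ := Submodule.mem_span_singleton.1 hv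
    have : w * s = s * w + (w * s - s * w) := by abel
    rw [smul_mul_assoc, this]
    exact Submodule.smul_mem _ _ (Submodule.add_mem_sup
      (Submodule.mul_mem_mul hs (Submodule.mem_span_singleton_self w)) (hn s hs))
  have hUJ : ∀ k : ℕ, U * (U ^ k * ⊤) = U ^ (k + 1) * ⊤ := fun k => by
    rw [pow_succ', mul_assoc]
  have hVJ : ∀ k : ℕ, V * (U ^ k * ⊤) ≤ U ^ k * ⊤ := by
    intro k
    induction k with
    | zero => simp
    | succ k ih =>
      rw [← hUJ, ← mul_assoc]
      refine (mul_le_mul' hVU le_rfl).trans ?_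
      rw [Submodule.sup_mul, mul_assoc]
      exact sup_le (mul_le_mul' le_rfl ih) le_rfl
  have hJJ : ∀ k : ℕ, U ^ (k + 1) * ⊤ ≤ U ^ k * (⊤ : Submodule F A) := fun k => by
    rw [pow_succ, mul_assoc]
    exact mul_le_mul' le_rfl le_top
  have hViJ : ∀ k i : ℕ, V ^ i * (U ^ k * ⊤) ≤ U ^ k * ⊤ := by
    intro k i
    induction i with
    | zero => simp
    | succ i ih =>
      rw [pow_succ', mul_assoc]
      exact (mul_le_mul' le_rfl ih).trans (hVJ k)
  have hi : ∀ k i : ℕ, (U ⊔ V) ^ i * (U ^ k * ⊤) ≤ V ^ i * (U ^ k * ⊤) ⊔ U ^ (k + 1) * ⊤ := by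
    intro k i
    induction i with
    | zero => simp
    | succ i ih =>
      rw [pow_succ', mul_assoc]
      refine (mul_le_mul' le_rfl ih).trans ?_
      rw [Submodule.mul_sup, Submodule.sup_mul, Submodule.sup_mul]
      refine sup_le (sup_le ?_ ?_) (sup_le ?_ ?_)
      · exact le_sup_of_le_right ((mul_le_mul' le_rfl (hViJ k i)).trans (hUJ k).le)
      · rw [← mul_assoc, ← pow_succ']
        exact le_sup_left
      · exact le_sup_of_le_right ((hUJ (k + 1)).le.trans (hJJ (k + 1)))
      · exact le_sup_of_le_right (hVJ (k + 1))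
  have hVm : V ^ m = ⊥ := by
    rw [hV, Submodule.span_pow, Set.singleton_pow, hm, Submodule.span_singleton_eq_bot]
  have hk : ∀ k : ℕ, (U ⊔ V) ^ (m * k) * ⊤ ≤ U ^ k * (⊤ : Submodule F A) := by
    intro k
    induction k with
    | zero => simp
    | succ k ih =>
      rw [Nat.mul_succ, add_comm, pow_add, mul_assoc]
      refine (mul_le_mul' le_rfl ih).trans ((hi k m).trans ?_)
      rw [hVm, Submodule.bot_mul, bot_sup_eq]
  refine ⟨m * K, eq_bot_iff.2 ?_⟩
  have h1 := hk K
  rw [hK, Submodule.bot_mul] at h1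
  intro y hy
  have h2 : y * 1 ∈ (U ⊔ V) ^ (m * K) * (⊤ : Submodule F A) :=
    Submodule.mul_mem_mul hy Submodule.mem_top
  rw [mul_one] at h2
  exact h1 h2

/-- a proper nilpotent part has a normalizing element outside -/
theorem jac_norm (W : Set A) (hW : ∀ a ∈ W, ∀ b ∈ W, a * b - b * a ∈ W) (U : Submodule F A)
    {K : ℕ} (hK : U ^ K = ⊥) {a : A} (ha : a ∈ W) (haU : a ∉ U) :
    ∃ w ∈ W, w ∉ U ∧ ∀ s ∈ W, s ∈ U → w * s - s * w ∈ U := by
  by_contra hc
  push Not at hc
  have key : ∀ n : ℕ, ∃ w ∈ W, w ∉ U ∧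
      ∀ i j : ℕ, 2 * K ≤ i + j + n → ∀ x ∈ U ^ i, ∀ y ∈ U ^ j, x * w * y = 0 := by
    intro n
    induction n with
    | zero =>
      refine ⟨a, ha, haU, fun i j hij x hx y hy => ?_⟩
      rcases le_or_gt K i with h | h
      · rw [jac_pow_bot U hK h, Submodule.mem_bot] at hx
        simp [hx]
      · rw [jac_pow_bot U hK (show K ≤ j by omega), Submodule.mem_bot] at hy
        simp [hy]
    | succ n ih =>
      obtain ⟨w, hwW, hwU, hw⟩ := ih
      obtain ⟨s, hsW, hsU, hs⟩ := hc w hwW hwU
      refine ⟨w * s - s * w, hW w hwW s hsW, hs, fun i j hij x hx y hy => ?_⟩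
      have h1 : x * w * (s * y) = 0 :=
        hw i (j + 1) (by omega) x hx _ (by rw [pow_succ']; exact Submodule.mul_mem_mul hsU hy)
      have h2 : x * s * w * y = 0 :=
        hw (i + 1) j (by omega) _ (by rw [pow_succ]; exact Submodule.mul_mem_mul hx hsU) y hy
      have h3 : x * (w * s - s * w) * y = x * w * (s * y) - x * s * w * y := by noncomm_ring
      rw [h3, h1, h2, sub_zero]
  obtain ⟨w, -, hwU, hw⟩ := key (2 * K)
  have h1 : (1 : A) ∈ U ^ 0 := by simp [Submodule.one_eq_span, Submodule.mem_span_singleton_self]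
  have h2 := hw 0 0 (by omega) 1 h1 1 h1
  rw [one_mul, mul_one] at h2
  exact hwU (h2 ▸ U.zero_mem)

/-- Jacobson's theorem, subspace form -/
theorem jac_span (W : Set A) (hW : ∀ a ∈ W, ∀ b ∈ W, a * b - b * a ∈ W)
    (hn : ∀ a ∈ W, IsNilpotent a) [FiniteDimensional F (Submodule.span F W)] :
    ∃ K : ℕ, Submodule.span F W ^ K = ⊥ := by
  classical
  let P : ℕ → Prop := fun r => ∃ S ⊆ W, (∃ K : ℕ, Submodule.span F S ^ K = ⊥) ∧
    Module.finrank F (Submodule.span F S) = r
  have h0 : P 0 := ⟨∅, Set.empty_subset _, ⟨1, by simp⟩, by rw [Submodule.span_empty, finrank_bot]⟩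
  have hb : ∀ r, P r → r ≤ Module.finrank F (Submodule.span F W) := by
    rintro r ⟨S, hS, -, rfl⟩
    exact Submodule.finrank_mono (Submodule.span_mono hS)
  obtain ⟨S, hS, ⟨K, hK⟩, hr⟩ : P (Nat.findGreatest P (Module.finrank F (Submodule.span F W))) :=
    Nat.findGreatest_spec (Nat.zero_le _) h0
  by_cases hWS : ∀ a ∈ W, a ∈ Submodule.span F S
  · refine ⟨K, eq_bot_iff.2 (le_trans ?_ hK.le)⟩
    exact pow_le_pow_left' (Submodule.span_le.2 hWS) K
  · exfalso
    push Not at hWS
    obtain ⟨a, ha, haU⟩ := hWS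
    obtain ⟨w, hwW, hwU, hw⟩ := jac_norm W hW _ hK ha haU
    have hw' : ∀ s ∈ Submodule.span F S, w * s - s * w ∈ Submodule.span F S := by
      intro s hs
      induction hs using Submodule.span_induction with
      | mem s hs => exact hw s (hS hs) (Submodule.subset_span hs)
      | zero => simp
      | add s t _ _ h1 h2 =>
        have : w * (s + t) - (s + t) * w = (w * s - s * w) + (w * t - t * w) := by noncomm_ring
        rw [this]
        exact Submodule.add_mem _ h1 h2
      | smul c s _ h1 =>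
        have : w * (c • s) - (c • s) * w = c • (w * s - s * w) := by
          rw [mul_smul_comm, smul_mul_assoc, smul_sub]
        rw [this]
        exact Submodule.smul_mem _ _ h1
    obtain ⟨N, hN⟩ := jac_step _ hK w (hn w hwW) hw'
    rw [← Submodule.span_union] at hN
    have hsub : S ∪ {w} ⊆ W := Set.union_subset hS (Set.singleton_subset_iff.2 hwW)
    have hP : P (Module.finrank F (Submodule.span F (S ∪ {w}))) := ⟨_, hsub, ⟨N, hN⟩, rfl⟩
    have hle := Nat.le_findGreatest (hb _ hP) hP
    rw [← hr] at hle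
    have : FiniteDimensional F (Submodule.span F (S ∪ {w})) :=
      Submodule.finiteDimensional_of_le (Submodule.span_mono hsub)
    have hlt : Submodule.span F S < Submodule.span F (S ∪ {w}) := by
      refine lt_of_le_of_ne (Submodule.span_mono Set.subset_union_left) fun h => hwU ?_
      rw [h]
      exact Submodule.subset_span (Set.mem_union_right _ rfl)
    exact absurd (Submodule.finrank_lt_finrank_of_lt hlt) (not_lt.2 hle)

end

/-- Jacobson's theorem on weakly closed sets -/
theorem jacBox : JacBox.{u} := by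
  intro F A _ _ _ W hW hn hfin
  obtain ⟨K, hK⟩ := jac_span (F := F) W hW hn
  refine ⟨K, fun l hl hlen => ?_⟩
  have h := jac_prod_mem (Submodule.span F W) l fun a ha => Submodule.subset_span (hl a ha)
  rwa [jac_pow_bot _ hK hlen, Submodule.mem_bot] at h

end Cfsg.Agent.Zel.PI
end

-- part: Zel/PI/Quot
section
/-!
# Reduction to a just infinite graded algebra
-/

set_option autoImplicit false

universe u

namespace Cfsg.Agent.Zel.PI

open Submodule

section

variable {F B α : Type*} [Field F] [Ring B] [Algebra F B] {y : α → B}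

/-- a graded ideal, given by its components -/
structure GrId (F : Type*) [Field F] [Algebra F B] (y : α → B) (I : ℕ → Submodule F B) : Prop where
  le : ∀ n, I n ≤ W F y n
  left : ∀ n i a, a ∈ I n → y i * a ∈ I (n + 1)
  right : ∀ n i a, a ∈ I n → a * y i ∈ I (n + 1)

variable (g : Gr F y) {I : ℕ → Submodule F B} (hI : GrId F y I)

/-- the ideal with the given components -/
def GrId.ideal : Ideal B where
  carrier := {z | ∀ n, g.p n z ∈ I n}
  add_mem' := fun {a b} ha hb n => by rw [map_add]; exact add_mem (ha n) (hb n)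
  zero_mem' := fun n => by rw [map_zero]; exact zero_mem _
  smul_mem' := by
    intro c z hz
    refine g.ind (P := fun c => ∀ n, g.p n (c * z) ∈ I n) ?_ (by simp) ?_ ?_ c
    · intro w
      induction w with
      | nil => simpa using hz
      | cons i w ih =>
        intro n
        rw [wd_cons, mul_assoc]
        cases n with
        | zero => rw [g.p_zero_x_mul]; exact zero_mem _
        | succ n => rw [g.p_x_mul]; exact hI.left _ _ _ (ih n)
    · intro a b h1 h2 n
      rw [add_mul, map_add]; exact add_mem (h1 n) (h2 n)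
    · intro c a h n
      rw [smul_mul_assoc, map_smul]; exact smul_mem _ _ (h n)

theorem GrId.mem_ideal {z : B} : z ∈ hI.ideal g ↔ ∀ n, g.p n z ∈ I n := Iff.rfl

theorem GrId.twoSided : (hI.ideal g).IsTwoSided where
  mul_mem_of_left := by
    intro z c hz
    refine g.ind (P := fun c => ∀ n, g.p n (z * c) ∈ I n) ?_ (by simp) ?_ ?_ c
    · intro w
      induction w using List.reverseRecOn with
      | nil => simpa using (hI.mem_ideal g).1 hz
      | append_singleton w i ih =>
        intro n
        rw [wd_append, wd_cons, wd_nil, mul_one, ← mul_assoc]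
        cases n with
        | zero => rw [g.p_zero_mul_x]; exact zero_mem _
        | succ n => rw [g.p_mul_x]; exact hI.right _ _ _ (ih n)
    · intro a b h1 h2 n
      rw [mul_add, map_add]; exact add_mem (h1 n) (h2 n)
    · intro c a h n
      rw [mul_smul_comm, map_smul]; exact smul_mem _ _ (h n)

theorem GrId.mem_ideal_iff {n : ℕ} {a : B} (ha : a ∈ W F y n) : a ∈ hI.ideal g ↔ a ∈ I n := by
  constructor
  · intro h
    have := h n
    rwa [g.p_self ha] at this
  · intro h m
    by_cases hm : n = m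
    · subst hm; rwa [g.p_self ha]
    · rw [g.p_ne ha hm]; exact zero_mem _

theorem map_W {C : Type*} [Ring C] [Algebra F C] (φ : B →ₐ[F] C) (n : ℕ) :
    (W F y n).map φ.toLinearMap = W F (fun i => φ (y i)) n := by
  apply le_antisymm
  · rw [map_le_iff_le_comap]
    refine W_le (fun w hw => ?_)
    change φ.toRingHom (wd y w) ∈ W F (fun i => φ (y i)) n
    rw [map_wd]
    exact wd_mem_W hw
  · refine W_le (fun w hw => ⟨wd y w, wd_mem_W hw, ?_⟩)
    exact map_wd φ.toRingHom w

/-- a surjection whose kernel is graded carries the grading over -/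
theorem exists_gr_of_surj {C : Type*} [Ring C] [Algebra F C] (φ : B →ₐ[F] C)
    (hφ : Function.Surjective φ) (hk : ∀ z, φ z = 0 → ∀ n, φ (g.p n z) = 0) :
    Nonempty (Gr F (fun i => φ (y i))) := by
  obtain ⟨σ, hσ⟩ := φ.toLinearMap.exists_rightInverse_of_surjective
    (LinearMap.range_eq_top.2 hφ)
  have h1 : ∀ n z, φ (g.p n (σ (φ z))) = φ (g.p n z) := by
    intro n z
    rw [← sub_eq_zero, ← map_sub, ← map_sub]
    refine hk _ ?_ n
    rw [map_sub, sub_eq_zero]
    exact LinearMap.congr_fun hσ (φ z)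
  have h2 : ∀ w, wd (fun i => φ (y i)) w = φ (wd y w) := fun w => (map_wd φ.toRingHom w).symm
  refine ⟨⟨fun n => φ.toLinearMap ∘ₗ g.p n ∘ₗ σ, fun n w => ?_, fun a => ?_⟩⟩
  · rw [h2]
    change φ (g.p n (σ (φ _))) = _
    rw [h1, g.p_wd]
    split_ifs <;> simp
  · obtain ⟨z, rfl⟩ := hφ a
    refine g.ind (P := fun z => φ z ∈ span F (Set.range (wd fun i => φ (y i)))) ?_ (by simp)
      ?_ ?_ z
    · intro w; exact subset_span ⟨w, h2 w⟩
    · intro a b ha hb; rw [map_add]; exact add_mem ha hb
    · intro c a ha; rw [map_smul]; exact smul_mem _ _ ha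

theorem exists_max_grId [Finite α] (h0 : ∀ n, ¬ W F y n ≤ I n) (hI : GrId F y I) :
    ∃ M, I ≤ M ∧ Maximal (fun J => GrId F y J ∧ ∀ n, ¬ W F y n ≤ J n) M := by
  refine zorn_le_nonempty₀ {J | GrId F y J ∧ ∀ n, ¬ W F y n ≤ J n} ?_ I ⟨hI, h0⟩
  intro c hc hch J hJ
  have hne : ∀ n, ((fun K : ℕ → Submodule F B => K n) '' c).Nonempty :=
    fun n => ⟨_, J, hJ, rfl⟩
  have hdir : ∀ n, DirectedOn (· ≤ ·) ((fun K : ℕ → Submodule F B => K n) '' c) := by
    rintro n _ ⟨K, hK, rfl⟩ _ ⟨L, hL, rfl⟩
    obtain ⟨M, hM, h1, h2⟩ := hch.directedOn K hK L hL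
    exact ⟨_, ⟨M, hM, rfl⟩, h1 n, h2 n⟩
  refine ⟨fun n => sSup ((fun K : ℕ → Submodule F B => K n) '' c), ⟨⟨?_, ?_, ?_⟩, ?_⟩, ?_⟩
  · intro n
    refine sSup_le ?_
    rintro _ ⟨K, hK, rfl⟩
    exact (hc hK).1.le n
  · intro n i a ha
    obtain ⟨_, ⟨K, hK, rfl⟩, h⟩ := (mem_sSup_of_directed (hne n) (hdir n)).1 ha
    exact (le_sSup (s := (fun K : ℕ → Submodule F B => K (n + 1)) '' c) ⟨K, hK, rfl⟩)
      ((hc hK).1.left n i a h)
  · intro n i a ha
    obtain ⟨_, ⟨K, hK, rfl⟩, h⟩ := (mem_sSup_of_directed (hne n) (hdir n)).1 ha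
    exact (le_sSup (s := (fun K : ℕ → Submodule F B => K (n + 1)) '' c) ⟨K, hK, rfl⟩)
      ((hc hK).1.right n i a h)
  · intro n hn
    have := W_fd (F := F) (x := y) n
    have hfg : (W F y n).FG := (Submodule.fg_iff_finiteDimensional _).2 this
    obtain ⟨_, ⟨K, hK, rfl⟩, h⟩ := (CompleteLattice.isCompactElement_iff_le_of_directed_sSup_le _ _).1
      ((Submodule.fg_iff_compact _).1 hfg) _ (hne n) (hdir n) hn
    exact (hc hK).2 n h
  · intro K hK n
    exact le_sSup (s := (fun K : ℕ → Submodule F B => K n) '' c) ⟨K, hK, rfl⟩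

theorem isJI_of_max {C : Type*} [Ring C] [Algebra F C] (φ : B →ₐ[F] C)
    (hk : ∀ n, ∀ a ∈ W F y n, φ a = 0 ↔ a ∈ I n)
    (hM : Maximal (fun J => GrId F y J ∧ ∀ n, ¬ W F y n ≤ J n) I) :
    IsJI F (fun i => φ (y i)) where
  ne := by
    intro n hn
    refine hM.1.2 n (fun a ha => (hk n a ha).1 ?_)
    rw [← map_W] at hn
    exact (mem_bot F).1 (hn ▸ mem_map_of_mem ha)
  ji := by
    intro K h1 h2 h3 ⟨m, hm⟩
    by_contra h4
    let J : ℕ → Submodule F B := fun n => W F y n ⊓ (K n).comap φ.toLinearMap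
    have hJ : GrId F y J :=
      { le := fun n => inf_le_left
        left := fun n i a ha => ⟨mul_mem_W' (x_mem_W i) ha.1 (add_comm _ _), by
          change φ (y i * a) ∈ K (n + 1)
          rw [map_mul]; exact h2 n i _ ha.2⟩
        right := fun n i a ha => ⟨mul_mem_W ha.1 (x_mem_W i), by
          change φ (a * y i) ∈ K (n + 1)
          rw [map_mul]; exact h3 n i _ ha.2⟩ }
    have hJ' : ∀ n, ¬ W F y n ≤ J n := fun n hn => h4 ⟨n, by
      rw [← map_W, map_le_iff_le_comap]
      exact hn.trans inf_le_right⟩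
    have hIJ : I ≤ J := fun n a ha => ⟨hM.1.1.le n ha, by
      change φ a ∈ K n
      rw [(hk n a (hM.1.1.le n ha)).2 ha]; exact zero_mem _⟩
    have hJI := hM.2 ⟨hJ, hJ'⟩ hIJ
    refine hm (eq_bot_iff.2 (fun b hb => ?_))
    have h5 := h1 m hb
    rw [← map_W] at h5
    obtain ⟨a, ha, rfl⟩ := h5
    exact (hk m a ha).2 (hJI m ⟨ha, hb⟩)

theorem map_val {C : Type*} [Ring C] [Algebra F C] (φ : B →ₐ[F] C) (S : Finset ℕ)
    (f : List ℕ → F) (t : ℕ → FreeMagma α) :
    φ (val S f (fun i => cm y (t i))) = val S f (fun i => cm (fun j => φ (y j)) (t i)) := by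
  unfold val
  rw [map_sum]
  refine Finset.sum_congr rfl (fun w _ => ?_)
  rw [map_smul]
  congr 1
  refine (map_wd φ.toRingHom w).trans ?_
  congr 1
  funext i
  exact map_cm φ.toRingHom (t i)

end

/-- the generators of the free algebra -/
noncomputable def fgen (F α : Type*) [Field F] (i : α) : MonoidAlgebra F (FreeMonoid α) :=
  MonoidAlgebra.of F _ (FreeMonoid.of i)

theorem wd_fgen (F : Type*) {α : Type*} [Field F] (w : List α) :
    wd (fgen F α) w = MonoidAlgebra.basis (FreeMonoid α) F (FreeMonoid.ofList w) := by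
  induction w with
  | nil => rfl
  | cons i w ih =>
    rw [wd_cons, ih, FreeMonoid.ofList_cons]
    exact (map_mul (MonoidAlgebra.of F (FreeMonoid α)) _ _).symm

/-- the grading of the free algebra -/
noncomputable def fgr (F α : Type*) [Field F] : Gr F (fgen F α) where
  p n := (MonoidAlgebra.basis (FreeMonoid α) F).constr F (fun w =>
    if w.toList.length = n then MonoidAlgebra.basis (FreeMonoid α) F w else 0)
  p_wd n w := by rw [wd_fgen, Module.Basis.constr_basis]; rfl
  top a := by
    have : Set.range (wd (fgen F α)) = Set.range (MonoidAlgebra.basis (FreeMonoid α) F) := by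
      ext z
      constructor
      · rintro ⟨w, rfl⟩; exact ⟨_, (wd_fgen F w).symm⟩
      · rintro ⟨w, rfl⟩; exact ⟨w.toList, wd_fgen F _⟩
    rw [this, Module.Basis.span_eq]
    trivial

theorem zBox_of_core (h : ∀ (F A : Type) [Field F] [IsAlgClosed F] [Ring A] [Algebra F A] (d : ℕ)
    (x : Fin d → A), Gr F x → IsJI F x → (∀ t, IsNilpotent (cm x t)) → HasPI F x → False) :
    ZBox.{u} := by
  intro F A _ _ _ _ d x hnil hPI
  by_contra hc
  let y := fgen F (Fin d)
  let g := fgr F (Fin d)
  let ε : MonoidAlgebra F (FreeMonoid (Fin d)) →ₐ[F] A :=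
    MonoidAlgebra.lift F A (FreeMonoid (Fin d)) (FreeMonoid.lift x)
  have hε : (fun i => ε (y i)) = x := by
    funext i
    simp [ε, y, fgen]
  let I₀ : ℕ → Submodule F (MonoidAlgebra F (FreeMonoid (Fin d))) :=
    fun n => W F y n ⊓ LinearMap.ker ε.toLinearMap
  have hI₀ : GrId F y I₀ :=
    { le := fun n => inf_le_left
      left := fun n i a ha => ⟨mul_mem_W' (x_mem_W i) ha.1 (add_comm _ _), by
        change ε (y i * a) = 0
        rw [map_mul, show ε a = 0 from ha.2, mul_zero]⟩
      right := fun n i a ha => ⟨mul_mem_W ha.1 (x_mem_W i), by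
        change ε (a * y i) = 0
        rw [map_mul, show ε a = 0 from ha.2, zero_mul]⟩ }
  have h0 : ∀ n, ¬ W F y n ≤ I₀ n := by
    intro n hn
    refine hc ⟨n, fun w hw => ?_⟩
    have h1 : wd x (w.take n) = 0 := by
      rw [← hε]
      exact (map_wd ε.toRingHom _).symm.trans (hn (wd_mem_W (by simp [hw]))).2
    rw [← List.take_append_drop n w, wd_append, h1, zero_mul]
  obtain ⟨M, hM0, hM⟩ := exists_max_grId h0 hI₀
  have := hM.1.1.twoSided g
  let φ := Ideal.Quotient.mkₐ F (hM.1.1.ideal g)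
  have hk : ∀ n, ∀ a ∈ W F y n, φ a = 0 ↔ a ∈ M n := fun n a ha =>
    Ideal.Quotient.eq_zero_iff_mem.trans (hM.1.1.mem_ideal_iff g ha)
  have hk0 : ∀ n, ∀ a ∈ W F y n, ε a = 0 → φ a = 0 := fun n a ha h1 =>
    (hk n a ha).2 (hM0 n ⟨ha, h1⟩)
  obtain ⟨g'⟩ := exists_gr_of_surj g φ (Ideal.Quotient.mkₐ_surjective F _) (fun z hz n =>
    (hk n _ (g.p_mem n z)).2 (Ideal.Quotient.eq_zero_iff_mem.1 hz n))
  refine h F _ d (fun i => φ (y i)) g' (isJI_of_max φ hk hM) (fun t => ?_) ?_
  · obtain ⟨k, hk1⟩ := hnil t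
    refine ⟨k, ?_⟩
    have h1 : cm (fun i => φ (y i)) t = φ (cm y t) := (map_cm φ.toRingHom t).symm
    rw [h1, ← map_pow]
    refine hk0 _ _ (pow_mem_W (cm_mem_W t) k) ?_
    have h2 : ε (cm y t) = cm x t := by rw [← hε]; exact map_cm ε.toRingHom t
    rw [map_pow, h2, hk1]
  · obtain ⟨S, f, h1, h2⟩ := hPI
    refine ⟨S, f, h1, fun t => ?_⟩
    rw [← map_val]
    refine hk0 _ _ (val_mem_W S f t) ?_
    rw [map_val, hε, h2]

end Cfsg.Agent.Zel.PI
end

-- part: Zel/PI/Main
section
/-!
# Zelmanov's theorem, associative form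
-/

set_option autoImplicit false

universe u

namespace Cfsg.Agent.Zel.PI

theorem zBox : ZBox.{u} :=
  zBox_of_core fun F A _ _ _ _ d x g h hn hP => core jacBox F A d x g h hn hP

end Cfsg.Agent.Zel.PI
end
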